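import Mathlib
import Cfsg.Agent.RankOneP.Basic

/-!
Half-transitive linear actions of p-groups: stabilisers, the fixed-point-free case and idempotent splittings.
-/

set_option autoImplicit false

namespace CfsgLib.PassmanHalf

variable {q : ℕ} [Fact q.Prime] {V : Type*} [AddCommGroup V] [Module (ZMod q) V] [Finite V]
  {G : Type*} [Group G] [Finite G] (ρ : G →* (V ≃ₗ[ZMod q] V))

/-- The stabiliser of a vector. -/
def stab (v : V) : Subgroup G where
  carrier := {g | ρ g v = v}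
  one_mem' := by simp
  mul_mem' := by
    intro a b ha hb
    show ρ (a * b) v = v
    rw [map_mul, LinearEquiv.mul_apply, (hb : ρ b v = v), (ha : ρ a v = v)]
  inv_mem' := by
    intro a ha
    show ρ a⁻¹ v = v
    conv_lhs => rw [← (ha : ρ a v = v)]
    rw [← LinearEquiv.mul_apply, ← map_mul, inv_mul_cancel, map_one]; rfl

theorem mem_stab {v : V} {g : G} : g ∈ stab ρ v ↔ ρ g v = v := Iff.rfl

theorem act_mul (g h : G) (v : V) : ρ (g * h) v = ρ g (ρ h v) := by rw [map_mul]; rfl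

theorem act_one (v : V) : ρ 1 v = v := by rw [map_one]; rfl

theorem act_inv (g : G) (v : V) : ρ g⁻¹ (ρ g v) = v := by
  rw [← act_mul, inv_mul_cancel, act_one]

theorem act_inv' (g : G) (v : V) : ρ g (ρ g⁻¹ v) = v := by
  rw [← act_mul, mul_inv_cancel, act_one]

theorem act_ne (g : G) {v : V} (hv : v ≠ 0) : ρ g v ≠ 0 := fun h => hv ((ρ g).map_eq_zero_iff.1 h)

/-- Size of an orbit times size of the stabiliser. -/
theorem orbit_card (H : Subgroup G) (v : V) :
    Nat.card {u : V | ∃ g ∈ H, ρ g v = u} * Nat.card ↥(H ⊓ stab ρ v) = Nat.card H := by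
  classical
  letI : MulAction G V := MulAction.compHom V ρ
  have h1 : {u : V | ∃ g ∈ H, ρ g v = u} = MulAction.orbit H v := by
    ext u
    constructor
    · rintro ⟨g, hg, rfl⟩; exact ⟨⟨g, hg⟩, rfl⟩
    · rintro ⟨⟨g, hg⟩, rfl⟩; exact ⟨g, hg, rfl⟩
  have h2 : MulAction.stabilizer H v = (stab ρ v).subgroupOf H := by
    ext g; rfl
  rw [h1, Nat.card_congr (MulAction.orbitEquivQuotientStabilizer H v), h2]
  have h3 := Subgroup.card_eq_card_quotient_mul_card_subgroup ((stab ρ v).subgroupOf H)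
  rw [h3]
  congr 1
  exact Nat.card_congr ⟨fun g => ⟨⟨g, g.2.1⟩, g.2.2⟩, fun g => ⟨g.1.1, g.1.2, g.2⟩, fun _ => rfl, fun _ => rfl⟩

theorem stab_card_eq
    (hhalf : ∀ v w : V, v ≠ 0 → w ≠ 0 → Nat.card {u : V | ∃ g : G, ρ g v = u} = Nat.card {u : V | ∃ g : G, ρ g w = u})
    {v w : V} (hv : v ≠ 0) (hw : w ≠ 0) : Nat.card (stab ρ v) = Nat.card (stab ρ w) := by
  have h : ∀ x : V, Nat.card {u : V | ∃ g : G, ρ g x = u} * Nat.card (stab ρ x) = Nat.card G := fun x => by
    have := orbit_card ρ ⊤ x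
    rw [top_inf_eq, Subgroup.card_top] at this
    simpa using this
  have h1 := h v
  rw [hhalf v w hv hw, ← h w] at h1
  exact Nat.eq_of_mul_eq_mul_left (Nat.pos_of_ne_zero fun h0 => by
    have := h w; rw [h0, zero_mul] at this; exact Nat.card_pos.ne this) h1

/-- Two vectors whose sum has a stabiliser fixing both have the same stabiliser. -/
theorem stab_eq_of_pair
    (hhalf : ∀ v w : V, v ≠ 0 → w ≠ 0 → Nat.card {u : V | ∃ g : G, ρ g v = u} = Nat.card {u : V | ∃ g : G, ρ g w = u})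
    {u w : V} (hu : u ≠ 0) (hw : w ≠ 0) (huw : u + w ≠ 0)
    (h : ∀ g : G, ρ g (u + w) = u + w → ρ g u = u) : stab ρ u = stab ρ w := by
  have h1 : stab ρ (u + w) ≤ stab ρ u := fun g hg => h g hg
  have h2 : stab ρ (u + w) ≤ stab ρ w := fun g hg => by
    have h3 : ρ g (u + w) = u + w := hg
    rw [map_add, h g hg] at h3
    exact add_left_cancel h3
  rw [← Subgroup.eq_of_le_of_card_ge h1 (stab_card_eq ρ hhalf hu huw).le,
    ← Subgroup.eq_of_le_of_card_ge h2 (stab_card_eq ρ hhalf hw huw).le]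

/-- All stabilisers of non-zero vectors are trivial as soon as one is. -/
theorem semiregular_of_stab_eq_bot
    (hhalf : ∀ v w : V, v ≠ 0 → w ≠ 0 → Nat.card {u : V | ∃ g : G, ρ g v = u} = Nat.card {u : V | ∃ g : G, ρ g w = u})
    {v : V} (hv : v ≠ 0) (h : stab ρ v = ⊥) :
    ∀ w : V, w ≠ 0 → ∀ g : G, ρ g w = w → g = 1 := by
  intro w hw g hg
  have h1 := stab_card_eq ρ hhalf hw hv
  rw [h, Subgroup.card_bot] at h1
  exact Subgroup.mem_bot.1 (Subgroup.eq_bot_of_card_eq _ h1 ▸ (hg : g ∈ stab ρ w))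

/-- A subgroup fixing every vector is trivial. -/
theorem eq_bot_of_fixes (hρ : Function.Injective ρ) {S : Subgroup G} (h : ∀ g ∈ S, ∀ v, ρ g v = v) : S = ⊥ := by
  rw [Subgroup.eq_bot_iff_forall]
  exact fun g hg => hρ (LinearEquiv.ext fun v => by rw [h g hg v, act_one])

theorem sum_zpowers_eq_zero {p : ℕ} {g : G} (hg : g ^ p = 1) (hp : 0 < p) (h1 : ∀ v : V, ρ g v = v → v = 0) (v : V) :
    ∑ i ∈ Finset.range p, ρ (g ^ i) v = 0 := by
  apply h1
  rw [map_sum]
  obtain ⟨k, rfl⟩ := Nat.exists_eq_succ_of_ne_zero hp.ne'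
  conv_rhs => rw [Finset.sum_range_succ', pow_zero, ← hg]
  rw [Finset.sum_range_succ]
  simp only [← act_mul, ← pow_succ']

/-- A group acting semiregularly in coprime characteristic has at most one subgroup of prime order `p`,
among commuting elements. -/
theorem mem_zpowers_of_commute {p : ℕ} [hp : Fact p.Prime] (hqp : q ≠ p) [Nontrivial V]
    {x y : G} (hxy : Commute x y) (hx : x ^ p = 1) (hy : y ^ p = 1) (hx1 : x ≠ 1)
    (hsr : ∀ w : V, w ≠ 0 → ∀ g : G, ρ g w = w → g = 1) : y ∈ Subgroup.zpowers x := by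
  by_contra hyx
  obtain ⟨v, hv⟩ := exists_ne (0 : V)
  have hfix : ∀ g : G, g ≠ 1 → ∀ w : V, ρ g w = w → w = 0 := fun g hg w hw => by
    by_contra h; exact hg (hsr w h g hw)
  have hox : orderOf x = p := orderOf_eq_prime hx hx1
  have hS : ∀ i : ℕ, ∑ j ∈ Finset.range p, ρ ((y * x ^ i) ^ j) v = 0 := by
    intro i
    refine sum_zpowers_eq_zero ρ ?_ hp.out.pos (hfix _ ?_) v
    · rw [(hxy.symm.pow_right i).mul_pow, hy, ← pow_mul, mul_comm, pow_mul, hx, one_pow, mul_one]
    · intro e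
      apply hyx
      rw [eq_inv_of_mul_eq_one_left e]
      exact inv_mem (pow_mem (Subgroup.mem_zpowers x) i)
  have hT : ∑ i ∈ Finset.range p, ∑ j ∈ Finset.range p, ρ ((y * x ^ i) ^ j) v = (p : ℕ) • v := by
    rw [Finset.sum_comm, Finset.sum_eq_single 0]
    · simp [act_one]
    · intro j hj hj0
      rw [Finset.mem_range] at hj
      have h0 : ∑ i ∈ Finset.range p, ρ ((x ^ j) ^ i) v = 0 := by
        refine sum_zpowers_eq_zero ρ ?_ hp.out.pos (hfix _ ?_) v
        · rw [← pow_mul, mul_comm, pow_mul, hx, one_pow]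
        · intro e
          have h := orderOf_dvd_of_pow_eq_one e
          rw [hox] at h
          exact absurd (Nat.le_of_dvd (Nat.pos_of_ne_zero hj0) h) (by omega)
      calc ∑ i ∈ Finset.range p, ρ ((y * x ^ i) ^ j) v
          = ∑ i ∈ Finset.range p, ρ (y ^ j) (ρ ((x ^ j) ^ i) v) := Finset.sum_congr rfl fun i _ => by
            rw [(hxy.symm.pow_right i).mul_pow, act_mul, ← pow_mul, ← pow_mul, mul_comm i j]
        _ = 0 := by rw [← map_sum, h0, map_zero]
    · simp [hp.out.pos]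
  rw [Finset.sum_eq_zero (fun i _ => hS i)] at hT
  have h2 : ((p : ZMod q)) • v = 0 := by rw [Nat.cast_smul_eq_nsmul]; exact hT.symm
  rcases smul_eq_zero.1 h2 with h3 | h3
  · rw [ZMod.natCast_eq_zero_iff] at h3
    exact hqp ((Nat.prime_dvd_prime_iff_eq Fact.out hp.out).1 h3)
  · exact hv h3

/-- A semiregular p-group is cyclic or generalised quaternion. -/
theorem cyclic_or_quaternion {p : ℕ} [hp : Fact p.Prime] (hG : IsPGroup p G) (hqp : q ≠ p) [Nontrivial V]
    (hsr : ∀ w : V, w ≠ 0 → ∀ g : G, ρ g w = w → g = 1) :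
    IsCyclic G ∨ ∃ n : ℕ, Nonempty (G ≃* QuaternionGroup n) := by
  rcases RankOneP.isCyclic_or_quaternion hG (p := p) (fun x y hx hy hx1 => by
    haveI : Nontrivial G := ⟨⟨x, 1, hx1⟩⟩
    haveI := hG.center_nontrivial
    obtain ⟨k, hk0, hk⟩ := (hG.to_subgroup (Subgroup.center G)).nontrivial_iff_card.1 inferInstance
    obtain ⟨⟨z, hzc⟩, hz⟩ := exists_prime_orderOf_dvd_card' p (G := Subgroup.center G) (hk ▸ dvd_pow_self p (by omega))
    rw [Subgroup.orderOf_mk] at hz
    have hz1 : z ≠ 1 := fun e => by rw [e, orderOf_one] at hz; exact hp.out.ne_one hz.symm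
    have hzp : z ^ p = 1 := hz ▸ pow_orderOf_eq_one z
    have hc : ∀ w, Commute z w := fun w => (Subgroup.mem_center_iff.1 hzc w).symm
    have h1 := mem_zpowers_of_commute ρ hqp (hc x) hzp hx hz1 hsr
    have h2 := mem_zpowers_of_commute ρ hqp (hc y) hzp hy hz1 hsr
    have heq : Subgroup.zpowers x = Subgroup.zpowers z := by
      refine Subgroup.eq_of_le_of_card_ge (Subgroup.zpowers_le.2 h1) ?_
      rw [Nat.card_zpowers, Nat.card_zpowers, hz, orderOf_eq_prime hx hx1]
    rw [heq]; exact h2) with h | ⟨-, k, -, h⟩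
  · exact Or.inl h
  · exact Or.inr ⟨_, h⟩

end CfsgLib.PassmanHalf
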