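import Cfsg.Agent.PassmanHalf.Split
import Cfsg.Agent.QDWr.Recognition
import Cfsg.Prelude.Def_CaseTheorems

/-!
Half-transitive p-groups whose cyclic maximal abelian normal subgroup generates a field.
-/

set_option autoImplicit false

open scoped commutatorElement

namespace CfsgLib.PassmanHalf

/-- Automorphisms of a finite field over its prime field, with a given involution. -/
theorem field_auts {q : ℕ} [Fact q.Prime] {K : Type*} [Field K] [Finite K] [Algebra (ZMod q) K]
    (σ : K ≃ₐ[ZMod q] K) (h2 : σ * σ = 1) (h1 : σ ≠ 1) :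
    ∃ f : ℕ, 0 < f ∧ Nat.card K = q ^ (2 * f) ∧ (∀ x, σ x = x ^ q ^ f) ∧
      ∀ τ : K ≃ₐ[ZMod q] K, ∃ i < 2 * f, ∀ x, τ x = x ^ q ^ i := by
  classical
  haveI := Fintype.ofFinite K
  haveI : Algebra.IsAlgebraic (ZMod q) K := Algebra.IsAlgebraic.of_finite _ _
  set e := Module.finrank (ZMod q) K with he
  set F := FiniteField.frobeniusAlgEquivOfAlgebraic (ZMod q) K with hF
  have hFpow : ∀ (i : ℕ) (x : K), (F ^ i) x = x ^ q ^ i := by
    intro i
    induction i with
    | zero => intro x; simp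
    | succ i ih =>
      intro x
      rw [pow_succ', AlgEquiv.mul_apply, ih, hF]
      simp [FiniteField.frobeniusAlgEquivOfAlgebraic, FiniteField.frobeniusAlgHom, pow_succ, ← pow_mul]
  have hbij := FiniteField.bijective_frobeniusAlgEquivOfAlgebraic_pow (ZMod q) K
  obtain ⟨⟨i, hi⟩, hiσ⟩ := hbij.2 σ
  have hiσ' : F ^ i = σ := hiσ
  have hord : orderOf F = e := FiniteField.orderOf_frobeniusAlgEquivOfAlgebraic (ZMod q) K
  have hdvd : e ∣ i + i := by
    rw [← hord]; exact orderOf_dvd_of_pow_eq_one (by rw [pow_add, hiσ', h2])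
  have hi0 : i ≠ 0 := by rintro rfl; exact h1 (hiσ'.symm.trans (pow_zero F))
  have hie : e = 2 * i := by
    obtain ⟨c, hc⟩ := hdvd
    change i < e at hi
    rcases c with _ | _ | c
    · omega
    · omega
    · have : e * 2 ≤ e * (c + 1 + 1) := Nat.mul_le_mul_left _ (by omega)
      omega
  refine ⟨i, Nat.pos_of_ne_zero hi0, ?_, fun x => by rw [← hiσ', hFpow], fun τ => ?_⟩
  · rw [Module.natCard_eq_pow_finrank (K := ZMod q), Nat.card_zmod, ← he, hie]
  · obtain ⟨⟨j, hj⟩, hjτ⟩ := hbij.2 τ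
    exact ⟨j, by rw [← hie]; exact hj, fun x => by rw [← show F ^ j = τ from hjτ, hFpow]⟩

variable {q : ℕ} [Fact q.Prime] {V : Type*} [AddCommGroup V] [Module (ZMod q) V] [Finite V] [Nontrivial V]
  {G : Type*} [Group G] [Finite G] (ρ : G →* (V ≃ₗ[ZMod q] V))

/-- The algebra generated by an abelian subgroup. -/
def algOf (A : Subgroup G) : Subalgebra (ZMod q) (Module.End (ZMod q) V) :=
  Algebra.adjoin (ZMod q) (toE ρ '' (A : Set G))

theorem algOf_comm (A : Subgroup G) (hA : ∀ x ∈ A, ∀ y ∈ A, x * y = y * x) :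
    ∀ a ∈ algOf ρ A, ∀ b ∈ algOf ρ A, a * b = b * a := by
  have h : ∀ y ∈ toE ρ '' (A : Set G), ∀ b ∈ algOf ρ A, y * b = b * y := by
    rintro _ ⟨y, hy, rfl⟩ b hb
    induction hb using Algebra.adjoin_induction with
    | mem x hx => obtain ⟨z, hz, rfl⟩ := hx; rw [← toE_mul, ← toE_mul, hA y hy z hz]
    | algebraMap r => exact (Algebra.commutes r _).symm
    | add x z _ _ hx hz => rw [mul_add, add_mul, hx, hz]
    | mul x z _ _ hx hz => rw [← mul_assoc, hx, mul_assoc, hz, ← mul_assoc]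
  intro a ha b hb
  induction ha using Algebra.adjoin_induction with
  | mem x hx => exact h x hx b hb
  | algebraMap r => exact Algebra.commutes r _
  | add x z _ _ hx hz => rw [mul_add, add_mul, hx, hz]
  | mul x z _ _ hx hz => rw [mul_assoc, hz, ← mul_assoc, hx, mul_assoc]

theorem algOf_stable (A : Subgroup G) [A.Normal] : ∀ g, ∀ a ∈ algOf ρ A, cj ρ g a ∈ algOf ρ A := by
  intro g a ha
  induction ha using Algebra.adjoin_induction with
  | mem x hx =>
    obtain ⟨z, hz, rfl⟩ := hx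
    refine Algebra.subset_adjoin ⟨g * z * g⁻¹, (inferInstance : A.Normal).conj_mem z hz g, ?_⟩
    simp [cj, toE_mul]
  | algebraMap r =>
    have : cj ρ g (algebraMap _ _ r) = algebraMap _ _ r := by
      rw [cj, ← Algebra.commutes, mul_assoc, toE_mul_inv, mul_one]
    rw [this]; exact Subalgebra.algebraMap_mem _ r
  | add x z _ _ hx hz =>
    have : cj ρ g (x + z) = cj ρ g x + cj ρ g z := by simp [cj, mul_add, add_mul]
    rw [this]; exact add_mem hx hz
  | mul x z _ _ hx hz => rw [cj_mul]; exact mul_mem hx hz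

/-- Either a non-trivial idempotent, or all non-zero elements are injective. -/
theorem idempotent_or_injective (A : Subgroup G) (hA : ∀ x ∈ A, ∀ y ∈ A, x * y = y * x)
    (hcop : (Nat.card A).Coprime q) :
    (∃ e ∈ algOf ρ A, e * e = e ∧ e ≠ 0 ∧ e ≠ 1) ∨ ∀ r ∈ algOf ρ A, r ≠ 0 → Function.Injective r := by
  classical
  have hqp := (Fact.out : q.Prime)
  haveI : CharP (Module.End (ZMod q) V) q :=
    charP_of_injective_algebraMap (FaithfulSMul.algebraMap_injective (ZMod q) (Module.End (ZMod q) V)) q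
  set L := (Nat.card A).totient with hL
  have hLpos : 0 < L := Nat.totient_pos.2 Nat.card_pos
  have hfix : ∀ r ∈ algOf ρ A, r ^ q ^ L = r := by
    intro r hr
    induction hr using Algebra.adjoin_induction with
    | mem x hx =>
      obtain ⟨z, hz, rfl⟩ := hx
      have hpow : ∀ k, (toE ρ z) ^ k = toE ρ (z ^ k) := fun k => by
        induction k with
        | zero => rw [pow_zero, pow_zero, toE_one]
        | succ k ih => rw [pow_succ, ih, pow_succ, toE_mul]
      rw [hpow]
      congr 1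
      have h1 : (q ^ L) ≡ 1 [MOD orderOf z] := (Nat.ModEq.pow_totient hcop.symm).of_dvd (by
        rw [← Subgroup.orderOf_mk z hz]; exact orderOf_dvd_natCard _)
      rw [← pow_mod_orderOf, h1, pow_mod_orderOf, pow_one]
    | algebraMap r => rw [← map_pow, ZMod.pow_card_pow]
    | add x z hxm hzm hx hz =>
      rw [add_pow_char_pow_of_commute (p := q) _ (algOf_comm ρ A hA x hxm z hzm), hx, hz]
    | mul x z hxm hzm hx hz =>
      rw [(show Commute x z from algOf_comm ρ A hA x hxm z hzm).mul_pow, hx, hz]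
  by_contra hcon
  push Not at hcon
  obtain ⟨hno, r, hr, hr0, hri⟩ := hcon
  obtain ⟨m, hm⟩ : ∃ m, q ^ L = m + 2 := ⟨q ^ L - 2, by
    have h1 := Nat.le_self_pow hLpos.ne' q; have h2 := hqp.two_le; omega⟩
  set e := r ^ (m + 1) with he
  have her : e * r = r := by rw [he, ← pow_succ]; have := hfix r hr; rwa [hm] at this
  have hee : e * e = e := by
    conv_lhs => arg 2; rw [he, pow_succ']
    rw [← mul_assoc, her, ← pow_succ', ← he]
  have he1 : e = 1 := hno e (pow_mem hr _) hee (fun h => hr0 (by rw [← her, h, zero_mul]))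
  apply hri
  intro v w h
  have : (r ^ m) (r v) = (r ^ m) (r w) := by rw [h]
  rwa [← Module.End.mul_apply, ← Module.End.mul_apply, ← pow_succ, ← he, he1] at this

theorem field_case (hρ : Function.Injective ρ) {p : ℕ} [hp : Fact p.Prime] (hG : IsPGroup p G) (hqp : q ≠ p)
    (hhalf : ∀ v w : V, v ≠ 0 → w ≠ 0 → Nat.card {u : V | ∃ g : G, ρ g v = u} = Nat.card {u : V | ∃ g : G, ρ g w = u})
    (hns : ¬ ∀ w : V, w ≠ 0 → ∀ g : G, ρ g w = w → g = 1)
    (A : Subgroup G) [A.Normal] (hA : ∀ x ∈ A, ∀ y ∈ A, x * y = y * x)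
    (hCA : Subgroup.centralizer (A : Set G) = A)
    (hunits : ∀ r ∈ algOf ρ A, r ≠ 0 → Function.Injective r) :
    Nat.card V = q ^ 2 ∧ ∃ m : ℕ, q = 2 ^ m - 1 ∧
      (Nonempty (G ≃* DihedralGroup (2 ^ m)) ∨ (Cfsg.IsQuasiDihedral G ∧ Nat.card G = 2 ^ (m + 2))) := by
  classical
  have hq := (Fact.out : q.Prime)
  have hTinj : Function.Injective (toE ρ) := fun g h e => hρ (LinearEquiv.toLinearMap_injective e)
  have hTA : ∀ g ∈ A, toE ρ g ∈ algOf ρ A := fun g hg => Algebra.subset_adjoin ⟨g, hg, rfl⟩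
  have hAsr : ∀ g ∈ A, ∀ v, v ≠ 0 → ρ g v = v → g = 1 := by
    intro g hg v hv hgv
    by_contra h1
    have h2 : toE ρ g - 1 ≠ 0 := fun h => h1 (hTinj (by rw [toE_one]; exact sub_eq_zero.1 h))
    have h3 := hunits _ (sub_mem (hTA g hg) (one_mem _)) h2
    exact hv (h3 (a₂ := 0) (by simp [LinearMap.sub_apply, toE_apply, hgv]))
  -- A is cyclic
  haveI hAcyc : IsCyclic A := by
    refine RankOneP.isCyclic_of_commute (p := p) (hG.to_subgroup A) (fun x y hx hy hx1 => ?_)
      (fun x y => Subtype.ext (hA x x.2 y y.2))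
    exact mem_zpowers_of_commute (ρ.comp A.subtype) hqp (Subtype.ext (hA x x.2 y y.2)) hx hy hx1
      (fun w hw g hg => Subtype.ext (hAsr g g.2 w hw hg))
  obtain ⟨⟨a, haA⟩, hga⟩ := IsCyclic.exists_zpow_surjective (G := A)
  have hAz : A = Subgroup.zpowers a := by
    refine le_antisymm (fun x hx => ?_) (Subgroup.zpowers_le.2 haA)
    obtain ⟨k, hk⟩ := hga ⟨x, hx⟩
    exact ⟨k, congrArg Subtype.val hk⟩
  set N := Nat.card A with hNdef
  have haN : orderOf a = N := by rw [hNdef, hAz, Nat.card_zpowers]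
  obtain ⟨n, hn⟩ := IsPGroup.iff_card.1 (hG.to_subgroup A)
  -- the field
  let K := ↥(algOf ρ A)
  letI : CommRing K :=
    { (inferInstance : Ring K) with mul_comm := fun x y => Subtype.ext (algOf_comm ρ A hA x x.2 y y.2) }
  haveI : Finite (Module.End (ZMod q) V) := Finite.of_injective (fun f : Module.End (ZMod q) V => (f : V → V))
    DFunLike.coe_injective
  haveI : Nontrivial K := ⟨⟨0, 1, fun h => by
    obtain ⟨v, hv⟩ := exists_ne (0 : V)
    exact hv (LinearMap.congr_fun (congrArg Subtype.val h) v).symm⟩⟩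
  have hKfield : IsField K :=
    { exists_pair_ne := exists_pair_ne K
      mul_comm := mul_comm
      mul_inv_cancel := fun {r} hr => by
        have hinj : Function.Injective fun t : K => r * t := fun t t' h => by
          refine Subtype.ext (LinearMap.ext fun v => hunits r r.2 (fun h' => hr (Subtype.ext h')) ?_)
          exact LinearMap.congr_fun (congrArg Subtype.val h) v
        obtain ⟨t, ht⟩ := (Finite.injective_iff_surjective.1 hinj) 1
        exact ⟨t, ht⟩ }
  letI : Field K := hKfield.toField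
  haveI := Fintype.ofFinite K
  let φ : G →* (K ≃ₐ[ZMod q] K) := MonoidHom.mk' (fun g =>
    { toFun := fun r => ⟨cj ρ g r, algOf_stable ρ A g r r.2⟩
      invFun := fun r => ⟨cj ρ g⁻¹ r, algOf_stable ρ A g⁻¹ r r.2⟩
      left_inv := fun r => Subtype.ext (by show cj ρ g⁻¹ (cj ρ g r) = r; rw [cj_cj, inv_mul_cancel, cj_one])
      right_inv := fun r => Subtype.ext (by show cj ρ g (cj ρ g⁻¹ r) = r; rw [cj_cj, mul_inv_cancel, cj_one])
      map_mul' := fun r t => Subtype.ext (cj_mul ρ g r t)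
      map_add' := fun r t => Subtype.ext (by
        show cj ρ g (r.1 + t.1) = cj ρ g r.1 + cj ρ g t.1
        simp [cj, mul_add, add_mul])
      commutes' := fun c => Subtype.ext (by
        show cj ρ g (algebraMap _ _ c) = algebraMap _ _ c
        rw [cj, ← Algebra.commutes, mul_assoc, toE_mul_inv, mul_one]) })
    (fun g h => AlgEquiv.ext fun r => Subtype.ext (cj_cj ρ g h r).symm)
  have hφapp : ∀ g (r : K), ((φ g r : K) : Module.End (ZMod q) V) = cj ρ g r := fun g r => rfl
  let ι : A → K := fun u => ⟨toE ρ u, hTA u u.2⟩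
  have hφι : ∀ g (u : A), φ g (ι u) = ι ⟨g * u * g⁻¹, (inferInstance : A.Normal).conj_mem u u.2 g⟩ :=
    fun g u => Subtype.ext (by
      rw [hφapp]
      show cj ρ g (toE ρ u) = toE ρ (g * u * g⁻¹)
      simp [cj, toE_mul])
  have hφker : ∀ g, φ g = 1 → g ∈ A := fun g hg => by
    rw [← hCA, Subgroup.mem_centralizer_iff]
    intro u hu
    have h1 := congrArg Subtype.val (hφι g ⟨u, hu⟩)
    rw [hg] at h1
    have h2 : toE ρ u = toE ρ (g * u * g⁻¹) := h1
    exact (mul_inv_eq_iff_eq_mul.1 (hTinj h2).symm).symm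
  have hordp : ∀ v, v ≠ 0 → ∃ y, ρ y v = v ∧ y ^ p = 1 ∧ y ≠ 1 := fun v hv => by
    have hne : stab ρ v ≠ ⊥ := fun h => hns (semiregular_of_stab_eq_bot ρ hhalf hv h)
    haveI := (Subgroup.nontrivial_iff_ne_bot _).2 hne
    obtain ⟨k, hk0, hk⟩ := (hG.to_subgroup (stab ρ v)).nontrivial_iff_card.1 inferInstance
    obtain ⟨⟨y, hy⟩, hyo⟩ := exists_prime_orderOf_dvd_card' p (hk ▸ dvd_pow_self p (by omega) : p ∣ Nat.card (stab ρ v))
    rw [Subgroup.orderOf_mk] at hyo
    exact ⟨y, hy, hyo ▸ pow_orderOf_eq_one y, fun e => by rw [e, orderOf_one] at hyo; exact hp.out.ne_one hyo.symm⟩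
  obtain ⟨v₀, hv₀⟩ := exists_ne (0 : V)
  obtain ⟨x, hxv, hxp, hx1⟩ := hordp v₀ hv₀
  set σ := φ x with hσ
  have hnotA : ∀ y v, v ≠ 0 → ρ y v = v → y ≠ 1 → y ∉ A := fun y v hv hyv hy1 hyA => hy1 (hAsr y hyA v hv hyv)
  have hφord : ∀ y v, v ≠ 0 → ρ y v = v → y ^ p = 1 → y ≠ 1 → orderOf (φ y) = p := fun y v hv hyv hyp hy1 =>
    orderOf_eq_prime (by rw [← map_pow, hyp, map_one]) fun h => hnotA y v hv hyv hy1 (hφker y h)
  have hσord : orderOf σ = p := hφord x v₀ hv₀ hxv hxp hx1
  let Y : Finset G := (Set.toFinite {y : G | y ^ p = 1 ∧ φ y = σ}).toFinset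
  have hmemY : ∀ y, y ∈ Y ↔ y ^ p = 1 ∧ φ y = σ := fun y => Set.Finite.mem_toFinset _
  have hcover : ∀ v, v ≠ 0 → ∃ y ∈ Y, ρ y v = v := fun v hv => by
    obtain ⟨y, hyv, hyp, hy1⟩ := hordp v hv
    have hz := RankOneP.zpowers_eq_of_orderOf_eq ((hφord y v hv hyv hyp hy1).trans hσord.symm)
    obtain ⟨i, hi⟩ : σ ∈ Subgroup.zpowers (φ y) := hz ▸ Subgroup.mem_zpowers σ
    refine ⟨y ^ i, (hmemY _).2 ⟨?_, ?_⟩, ?_⟩
    · rw [← zpow_natCast, ← zpow_mul, mul_comm, zpow_mul, zpow_natCast, hyp, one_zpow]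
    · rw [map_zpow]; exact hi
    · exact Subgroup.zpow_mem (stab ρ v) hyv i
  have hYA : ∀ y ∈ Y, y * x⁻¹ ∈ A := fun y hy =>
    hφker _ (by rw [map_mul, ((hmemY y).1 hy).2, map_inv, mul_inv_cancel])
  -- fixed spaces
  set B := Nat.sqrt (Nat.card V) with hB
  obtain ⟨c, hc⟩ : ∃ c : K, σ c ≠ c := by
    by_contra h; push Not at h
    have : σ = 1 := AlgEquiv.ext h
    rw [this, orderOf_one] at hσord
    exact hp.out.ne_one hσord.symm
  have hfixsq : ∀ y, φ y = σ → Nat.card {v : V // ρ y v = v} ≤ B := fun y hy => by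
    rw [hB, Nat.le_sqrt, ← Nat.card_prod]
    refine Nat.card_le_card_of_injective (fun p => p.1.1 + c.1 p.2.1) ?_
    rintro ⟨⟨u, hu⟩, ⟨w, hw⟩⟩ ⟨⟨u', hu'⟩, ⟨w', hw'⟩⟩ h
    have h0 : (u - u') + c.1 (w - w') = 0 := by
      rw [map_sub, sub_add_sub_comm, sub_eq_zero]; exact h
    have h1 := congrArg (ρ y) h0
    rw [map_zero, map_add, map_sub, hu, hu', ← cj_act ρ y, map_sub, hw, hw', ← hφapp, hy] at h1
    have h2 : ((σ c - c : K) : Module.End (ZMod q) V) (w - w') = 0 := by
      show (σ c).1 (w - w') - c.1 (w - w') = 0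
      linear_combination (norm := abel) h1 - h0
    have hne : ((σ c - c : K) : Module.End (ZMod q) V) ≠ 0 := fun h => hc (sub_eq_zero.1 (Subtype.ext h))
    have h3 : w - w' = 0 := hunits _ (σ c - c : K).2 hne (a₂ := 0) (by rw [h2, map_zero])
    rw [h3, map_zero, add_zero] at h0
    simp [sub_eq_zero.1 h0, sub_eq_zero.1 h3]
  have hcount : Nat.card V - 1 ≤ Y.card * (B - 1) := by
    haveI := Fintype.ofFinite V
    have hsub : (Finset.univ.erase (0 : V)) ⊆ Y.biUnion fun y => (Finset.univ.filter fun v => ρ y v = v).erase 0 := by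
      intro v hv
      obtain ⟨y, hy, hyv⟩ := hcover v (Finset.mem_erase.1 hv).1
      exact Finset.mem_biUnion.2 ⟨y, hy, Finset.mem_erase.2 ⟨(Finset.mem_erase.1 hv).1, by simp [hyv]⟩⟩
    have h1 := (Finset.card_le_card hsub).trans (Finset.card_biUnion_le_card_mul _ _ (B - 1) fun y hy => by
      rw [Finset.card_erase_of_mem (by simp)]
      have := hfixsq y ((hmemY y).1 hy).2
      rw [Nat.card_eq_fintype_card, Fintype.card_subtype] at this
      omega)
    rwa [Finset.card_erase_of_mem (Finset.mem_univ _), Finset.card_univ, ← Nat.card_eq_fintype_card] at h1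
  have hB2 : B * B ≤ Nat.card V := Nat.sqrt_le _
  obtain ⟨r, hr⟩ := RankOneP.exists_conj_zpow (hAz ▸ (inferInstance : A.Normal)) x
  have hYpow : ∀ y ∈ Y, ∃ i : ℤ, y = a ^ i * x ∧ a ^ (i * ∑ t ∈ Finset.range p, r ^ t) = 1 := fun y hy => by
    obtain ⟨i, hi⟩ : y * x⁻¹ ∈ Subgroup.zpowers a := hAz ▸ hYA y hy
    have hyi : y = a ^ i * x := eq_mul_of_mul_inv_eq hi.symm
    have h1 := ((hmemY y).1 hy).1
    rw [hyi, RankOneP.mul_pow_formula hr, hxp, mul_one] at h1
    exact ⟨i, hyi, h1⟩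
  have hYle : ∀ k : ℕ, 0 < k → (∀ y ∈ Y, (y * x⁻¹) ^ k = 1) → Y.card ≤ k := by
    intro k hk h
    haveI := Fintype.ofFinite A
    refine le_trans ?_ (IsCyclic.card_pow_eq_one_le (α := A) hk)
    exact Finset.card_le_card_of_injOn
      (fun y => if hy : y * x⁻¹ ∈ A then (⟨_, hy⟩ : A) else 1)
      (fun y hy => by
        rw [Finset.mem_coe, Finset.mem_filter]
        simp only [dif_pos (hYA y hy)]
        exact ⟨Finset.mem_univ _, Subtype.ext (h y hy)⟩)
      (fun y hy z hz he => by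
        simp only [dif_pos (hYA y hy), dif_pos (hYA z hz), Subtype.mk.injEq] at he
        exact mul_right_cancel he)
  have hYN : Y.card ≤ N := hYle N Nat.card_pos fun y hy =>
    orderOf_dvd_iff_pow_eq_one.1 (by rw [← Subgroup.orderOf_mk _ (hYA y hy)]; exact orderOf_dvd_natCard _)
  rcases Nat.lt_or_ge B 2 with hB1 | hB1
  · exfalso
    have : 1 < Nat.card V := Finite.one_lt_card
    rw [show B - 1 = 0 by omega, mul_zero] at hcount
    omega
  have hYB : B + 1 ≤ Y.card := by
    by_contra h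
    have h1 : Y.card * (B - 1) ≤ B * (B - 1) := Nat.mul_le_mul_right _ (by omega)
    obtain ⟨b, hb⟩ : ∃ b, B = b + 1 := ⟨B - 1, by omega⟩
    rw [hb] at h1 hcount hB2 h
    rw [Nat.add_sub_cancel] at h1 hcount
    nlinarith [hcount, h1, hB2, Nat.sub_add_cancel (show 1 ≤ Nat.card V from Nat.card_pos)]
  by_cases hp2 : p ≠ 2
  · -- odd p is impossible
    exfalso
    have hYp : Y.card ≤ p := by
      rcases Nat.lt_or_ge n 2 with hn2 | hn2
      · refine hYN.trans ?_
        rw [hNdef, hn]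
        exact (Nat.pow_le_pow_right hp.out.pos (show n ≤ 1 by omega)).trans (pow_one p).le
      refine hYle p hp.out.pos fun y hy => ?_
      have hrp : (p : ℤ) ^ n ∣ r ^ p - 1 := by
        have h1 := RankOneP.conj_zpow_pow hr p 1
        rw [hxp, one_mul, inv_one, mul_one, zpow_one, mul_one] at h1
        have : a ^ (r ^ p - 1) = 1 := by rw [zpow_sub, ← h1, zpow_one, mul_inv_cancel]
        rw [← orderOf_dvd_iff_zpow_eq_one, haN, hNdef, hn] at this
        exact_mod_cast this
      obtain ⟨w, hw⟩ := RankOneP.odd_prime_key hp.out hp2 hn2 hrp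
      obtain ⟨i, hyi, hiz⟩ := hYpow y hy
      rw [hw, mul_add, zpow_add, show i * ((p : ℤ) ^ n * w) = (N : ℤ) * (i * w) by rw [hNdef, hn]; push_cast; ring,
        zpow_mul a (N : ℤ), zpow_natCast, ← haN, pow_orderOf_eq_one, one_zpow, mul_one] at hiz
      rw [hyi, mul_inv_cancel_right, ← zpow_natCast, ← zpow_mul]
      exact hiz
    have hFx : p + 1 ≤ B := by
      refine le_trans ?_ (hfixsq x rfl)
      have hAne : (⊥ : Subgroup G) < A := bot_lt_iff_ne_bot.2 fun h => by
        have := hφord x v₀ hv₀ hxv hxp hx1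
        have hxA : x ∈ A := hCA ▸ Subgroup.mem_centralizer_iff.2 (fun u hu => by
          rw [Subgroup.mem_bot.1 (h ▸ hu : u ∈ (⊥ : Subgroup G))]; simp)
        exact hnotA x v₀ hv₀ hxv hx1 hxA
      obtain ⟨z', hz'A, hz'1, hz'c⟩ := CfsgLib.PGroup.exists_mem_central_mod hG hAne
      obtain ⟨k, hk⟩ := (IsPGroup.iff_orderOf.1 hG z')
      have hk0 : k ≠ 0 := by
        rintro rfl
        exact hz'1 (Subgroup.mem_bot.2 (orderOf_eq_one_iff.1 (by simpa using hk)))
      set z := z' ^ p ^ (k - 1) with hz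
      have hzA : z ∈ A := pow_mem hz'A _
      have hzo : orderOf z = p := by
        rw [hz, orderOf_pow' _ (pow_ne_zero _ hp.out.ne_zero), hk,
          Nat.gcd_eq_right (pow_dvd_pow p (Nat.sub_le k 1)), Nat.pow_div (Nat.sub_le k 1) hp.out.pos,
          show k - (k - 1) = 1 by omega, pow_one]
      have hzx : Commute x z := by
        have h1 : ⁅z', x⁆ = 1 := Subgroup.mem_bot.1 (hz'c x)
        exact ((show Commute z' x from commutatorElement_eq_one_iff_mul_comm.1 h1).pow_left _).symm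
      let u : Fin p → {v : V // ρ x v = v} := fun i => ⟨ρ (z ^ (i : ℕ)) v₀, by
        rw [← act_mul, (hzx.pow_right _).eq, act_mul, hxv]⟩
      let u' : Option (Fin p) → {v : V // ρ x v = v} := fun o => o.elim ⟨0, map_zero _⟩ u
      have hinj : Function.Injective u' := by
        rintro (_ | i) (_ | j) h
        · rfl
        · exact absurd (congrArg Subtype.val h).symm (act_ne ρ _ hv₀)
        · exact absurd (congrArg Subtype.val h) (act_ne ρ _ hv₀)
        · have h' : ρ (z ^ (i : ℕ)) v₀ = ρ (z ^ (j : ℕ)) v₀ := congrArg Subtype.val h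
          have h1 : (z ^ (i : ℕ))⁻¹ * z ^ (j : ℕ) = 1 := hAsr _ (mul_mem (inv_mem (pow_mem hzA _)) (pow_mem hzA _))
            v₀ hv₀ (by rw [act_mul, ← h', act_inv])
          have h2 := pow_injOn_Iio_orderOf (x := z) (Set.mem_Iio.2 (hzo.symm ▸ i.2)) (Set.mem_Iio.2 (hzo.symm ▸ j.2))
            (inv_mul_eq_one.1 h1)
          exact congrArg some (Fin.ext h2)
      have := Nat.card_le_card_of_injective u' hinj
      rwa [Nat.card_eq_fintype_card, Fintype.card_option, Fintype.card_fin] at this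
    omega
  push Not at hp2
  subst hp2
  -- the vector space is a line over the field
  have hNK : N + 1 ≤ Nat.card K := by
    have : Function.Injective (fun o : Option A => o.elim (0 : K) ι) := by
      rintro (_ | u) (_ | w) h
      · rfl
      · exact absurd (LinearMap.congr_fun (congrArg Subtype.val h) v₀).symm (act_ne ρ _ hv₀)
      · exact absurd (LinearMap.congr_fun (congrArg Subtype.val h) v₀) (act_ne ρ _ hv₀)
      · exact congrArg some (Subtype.ext (hTinj (congrArg Subtype.val h)))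
    have h1 := Nat.card_le_card_of_injective _ this
    haveI := Fintype.ofFinite A
    rwa [Nat.card_eq_fintype_card (α := Option A), Fintype.card_option, ← Nat.card_eq_fintype_card, ← hNdef] at h1
  let ev : K → V := fun r => r.1 v₀
  have hevinj : Function.Injective ev := fun r t h => by
    by_contra hne
    have h1 := hunits (r - t : K).1 (r - t : K).2 (fun e => hne (sub_eq_zero.1 (Subtype.ext e))) (a₂ := 0)
      (a₁ := v₀) (by simp only [map_zero]; exact sub_eq_zero.2 h)
    exact hv₀ h1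
  have hevsurj : Function.Surjective ev := by
    intro w
    by_contra hw
    push Not at hw
    have : Nat.card K * Nat.card K ≤ Nat.card V := by
      rw [← Nat.card_prod]
      refine Nat.card_le_card_of_injective (fun p : K × K => ev p.1 + p.2.1 w) ?_
      rintro ⟨r, t⟩ ⟨r', t'⟩ h
      have ht : t = t' := by
        by_contra hne
        have hne' : t - t' ≠ 0 := sub_ne_zero.2 hne
        apply hw ((t - t')⁻¹ * (r' - r))
        have h1 : ((t - t' : K) : Module.End (ZMod q) V) w = ((r' - r : K) : Module.End (ZMod q) V) v₀ := by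
          show t.1 w - t'.1 w = r'.1 v₀ - r.1 v₀
          have h' : r.1 v₀ + t.1 w = r'.1 v₀ + t'.1 w := h
          linear_combination (norm := abel) h'
        show ((t - t')⁻¹ : K).1 ((r' - r : K).1 v₀) = w
        rw [← h1]
        exact LinearMap.congr_fun (congrArg Subtype.val (inv_mul_cancel₀ hne')) w
      subst ht
      exact Prod.ext (hevinj (add_right_cancel h)) rfl
    have h1 : Nat.card K ≤ B := hB ▸ Nat.le_sqrt.2 this
    omega
  have hVK : Nat.card V = Nat.card K := (Nat.card_eq_of_bijective ev ⟨hevinj, hevsurj⟩).symm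
  have hσ2 : σ * σ = 1 := by rw [← sq, ← hσord, pow_orderOf_eq_one]
  have hσ1 : σ ≠ 1 := fun h => by rw [h, orderOf_one] at hσord; exact absurd hσord (by norm_num)
  obtain ⟨f, hf0, hKcard, hσf, hgal⟩ := field_auts σ hσ2 hσ1
  set Q := q ^ f with hQ
  have hBQ : B = Q := by
    rw [hB, hVK, hKcard, hQ, two_mul, pow_add, Nat.sqrt_eq]
  have hιpow : ∀ (u : A) (k : ℕ), ι u ^ k = ι (u ^ k) := fun u k => Subtype.ext (by
    show (toE ρ u) ^ k = toE ρ ((u ^ k : A) : G)
    induction k with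
    | zero => rw [pow_zero, pow_zero]; exact (toE_one ρ).symm
    | succ k ih => rw [pow_succ, ih, pow_succ, Subgroup.coe_mul, toE_mul])
  have hιinj : Function.Injective ι := fun u w h => Subtype.ext (hTinj (congrArg Subtype.val h))
  have har : a ^ r = a ^ Q := by
    have h1 := hφι x ⟨a, haA⟩
    rw [← hσ, hσf, hιpow] at h1
    have h2 := congrArg Subtype.val (hιinj h1)
    simp only [Subgroup.coe_pow] at h2
    rw [← hr, ← h2]
  have hYQ : ∀ y ∈ Y, (y * x⁻¹) ^ (Q + 1) = 1 := fun y hy => by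
    obtain ⟨i, hyi, hiz⟩ := hYpow y hy
    rw [hyi, mul_inv_cancel_right]
    have hsum : a ^ (∑ t ∈ Finset.range 2, r ^ t) = a ^ (Q + 1) := by
      rw [Finset.sum_range_succ, Finset.sum_range_one, pow_zero, pow_one, zpow_add, har, zpow_one, pow_succ']
    rw [mul_comm i, zpow_mul, hsum, ← zpow_natCast, ← zpow_mul, mul_comm, zpow_mul, zpow_natCast] at hiz
    exact hiz
  have hgcd : Y.card ≤ Nat.gcd (Q + 1) N := hYle _ (Nat.gcd_pos_of_pos_left _ (by omega)) fun y hy =>
    pow_gcd_eq_one.2 ⟨hYQ y hy,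
      orderOf_dvd_iff_pow_eq_one.1 (by rw [← Subgroup.orderOf_mk _ (hYA y hy)]; exact orderOf_dvd_natCard _)⟩
  have hdvdN : Q + 1 ∣ N := by
    have h1 : Nat.gcd (Q + 1) N = Q + 1 := le_antisymm (Nat.le_of_dvd (by omega) (Nat.gcd_dvd_left _ _)) (by omega)
    rw [← h1]; exact Nat.gcd_dvd_right _ _
  obtain ⟨j, hjn, hj⟩ := (Nat.dvd_prime_pow Nat.prime_two).1 (show Q + 1 ∣ 2 ^ n from hn ▸ hNdef ▸ hdvdN)
  have hq3 : 3 ≤ q := by have := hq.two_le; omega
  have hj2 : 2 ≤ j := by
    by_contra h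
    have hle := Nat.pow_le_pow_right (show 1 ≤ 2 by omega) (show j ≤ 1 by omega)
    rw [pow_one] at hle
    have := Nat.le_self_pow hf0.ne' q
    omega
  have hqodd : Odd q := hq.odd_of_ne_two (by omega)
  have hf1 : f = 1 := by
    rcases Nat.even_or_odd f with hfe | hfo
    · exfalso
      obtain ⟨g, rfl⟩ := hfe
      obtain ⟨c, hc⟩ := hqodd.pow (n := g)
      have hj' : q ^ (g + g) + 1 = 2 ^ j := hj
      rw [pow_add, hc] at hj'
      have : 4 ∣ 2 ^ j := pow_dvd_pow 2 hj2
      have e1 : (2 * c + 1) * (2 * c + 1) = 4 * (c * c + c) + 1 := by ring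
      omega
    · obtain ⟨S, hS⟩ := hfo.nat_add_dvd_pow_add_pow q 1
      rw [one_pow, ← hQ] at hS
      have hSd : S ∣ 2 ^ j := Dvd.intro_left _ (hS.symm.trans hj)
      obtain ⟨i, -, rfl⟩ := (Nat.dvd_prime_pow Nat.prime_two).1 hSd
      -- the cofactor is odd
      rcases Nat.eq_zero_or_pos i with rfl | hi
      · rw [pow_zero, mul_one] at hS
        by_contra hne
        have := Nat.pow_lt_pow_right hq.one_lt (show 1 < f by have := hf0; omega)
        rw [pow_one, ← hQ] at this
        omega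
      · exfalso
        obtain ⟨w, hw⟩ := (Nat.dvd_prime_pow Nat.prime_two).1 (Dvd.intro _ (hS.symm.trans hj) : q + 1 ∣ 2 ^ j)
        have hw1 : 1 ≤ w := by
          rcases w with _ | w
          · simp at hw; omega
          · omega
        have key : ((q : ZMod (2 ^ (w + 1))) ^ f) + 1 = 2 ^ w := by
          have hsq : (2 : ZMod (2 ^ (w + 1))) ^ w * 2 ^ w = 0 := by
            rw [← pow_add, show (2 : ZMod (2 ^ (w + 1))) = ((2 : ℕ) : ZMod (2 ^ (w + 1))) from rfl, ← Nat.cast_pow,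
              ZMod.natCast_eq_zero_iff]
            exact pow_dvd_pow 2 (by omega)
          have htwo : (2 : ZMod (2 ^ (w + 1))) * 2 ^ w = 0 := by
            rw [← pow_succ', show (2 : ZMod (2 ^ (w + 1))) = ((2 : ℕ) : ZMod (2 ^ (w + 1))) from rfl, ← Nat.cast_pow,
              ZMod.natCast_self]
          have hqz : (q : ZMod (2 ^ (w + 1))) = 2 ^ w - 1 := by
            have := congrArg (Nat.cast : ℕ → ZMod (2 ^ (w + 1))) hw.2
            push_cast at this
            linear_combination this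
          obtain ⟨k, rfl⟩ := hfo
          have e0 : (q : ZMod (2 ^ (w + 1))) ^ (2 * k + 1) = ((q : ZMod (2 ^ (w + 1))) ^ 2) ^ k * q := by ring
          rw [e0]
          have h1 : (q : ZMod (2 ^ (w + 1))) ^ 2 = 1 := by rw [hqz]; linear_combination hsq - htwo
          rw [h1, one_pow, one_mul, hqz]; ring
        have h2 : ((2 ^ w : ℕ) : ZMod (2 ^ (w + 1))) = 0 := by
          rw [Nat.cast_pow, Nat.cast_ofNat, ← key]
          have h3 : ((Q + 1 : ℕ) : ZMod (2 ^ (w + 1))) = 0 := by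
            rw [ZMod.natCast_eq_zero_iff, hS, hw.2, pow_succ]
            exact Nat.mul_dvd_mul_left _ (dvd_pow_self 2 hi.ne')
          rw [hQ] at h3
          push_cast at h3
          exact h3
        rw [ZMod.natCast_eq_zero_iff] at h2
        have := Nat.le_of_dvd (Nat.two_pow_pos w) h2
        rw [pow_succ] at this
        have := Nat.two_pow_pos w
        omega
  have hQ1 : Q = q := by rw [hQ, hf1, pow_one]
  rw [hQ1] at hj har hdvdN hYQ hσf
  rw [hf1] at hKcard hgal
  refine ⟨by rw [hVK, hKcard], j, by omega, ?_⟩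
  have hxA : x ∉ A := hnotA x v₀ hv₀ hxv hx1
  have hcases : ∀ g : G, g ∈ A ∨ g * x⁻¹ ∈ A := fun g => by
    obtain ⟨i, hi, hτ⟩ := hgal (φ g)
    rcases (show i = 0 ∨ i = 1 by omega) with rfl | rfl
    · left; exact hφker g (AlgEquiv.ext fun t => by rw [hτ]; simp)
    · right
      refine hφker _ ?_
      rw [map_mul, map_inv, ← hσ, show φ g = σ from AlgEquiv.ext fun t => by rw [hτ, hσf, pow_one], mul_inv_cancel]
  have hcardG : Nat.card G = 2 * N := by
    have hidx : A.index = 2 := by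
      rw [Subgroup.index_eq_two_iff]
      refine ⟨x⁻¹, fun g => ?_⟩
      rcases hcases g with h | h
      · exact Or.inr ⟨h, fun h' => hxA (A.inv_mem_iff.1 ((A.mul_mem_cancel_left h).1 h'))⟩
      · refine Or.inl ⟨h, fun h' => hxA (A.inv_mem_iff.1 ((A.mul_mem_cancel_left h').1 h))⟩
    rw [← A.card_mul_index, hidx, mul_comm, hNdef]
  have hNq : N ∣ (q + 1) * (q - 1) := by
    have h1 : ι ⟨a, haA⟩ ^ (Nat.card K - 1) = 1 := by
      rw [Nat.card_eq_fintype_card]
      exact FiniteField.pow_card_sub_one_eq_one _ fun h =>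
        act_ne ρ a hv₀ (LinearMap.congr_fun (congrArg Subtype.val h) v₀)
    rw [hιpow, hKcard] at h1
    have h2 : ((⟨a, haA⟩ : A) ^ (q ^ (2 * 1) - 1) : A) = 1 := hιinj (h1.trans (Subtype.ext (toE_one ρ).symm))
    have h3 : a ^ (q ^ (2 * 1) - 1) = 1 := congrArg Subtype.val h2
    rw [← haN]
    refine orderOf_dvd_of_pow_eq_one ?_
    rwa [← Nat.sq_sub_sq, one_pow, show q ^ 2 = q ^ (2 * 1) by rw [mul_one]]
  have hn1 : n ≤ j + 1 := by
    by_contra h
    have h1 : 2 ^ (j + 2) ∣ (q + 1) * (q - 1) := (pow_dvd_pow 2 (show j + 2 ≤ n by omega)).trans (hn ▸ hNq)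
    rw [hj, pow_add, Nat.mul_dvd_mul_iff_left (Nat.two_pow_pos j)] at h1
    have h2 : 4 ∣ q - 1 := h1
    have : 4 ∣ 2 ^ j := pow_dvd_pow 2 hj2
    omega
  have hx2 : x ^ 2 = 1 := hxp
  have haQ : x * a * x⁻¹ = a ^ q := by rw [hr, har]
  rcases (show n = j ∨ n = j + 1 by omega) with hnj | hnj
  · left
    have hN2 : orderOf a = 2 ^ j := by rw [haN, hNdef, hn, hnj]
    refine CfsgLib.QDWr.nonempty_mulEquiv_dihedral hN2 ?_ hx2 (by rwa [← hAz]) ?_
    · rw [haQ, eq_inv_iff_mul_eq_one, ← pow_succ, hj, ← hN2, pow_orderOf_eq_one]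
    · rw [eq_top_iff]
      intro g _
      rcases hcases g with h | h
      · exact Subgroup.mem_sup_left (hAz ▸ h)
      · rw [← inv_mul_cancel_right g x]
        exact mul_mem (Subgroup.mem_sup_left (T := Subgroup.zpowers x) (hAz ▸ h)) (Subgroup.mem_sup_right (Subgroup.mem_zpowers x))
  · right
    have hc2 : Nat.card G = 2 ^ (j + 2) := by rw [hcardG, hNdef, hn, hnj, ← pow_succ']
    refine ⟨⟨j + 1, by omega, hc2, a, x, by rw [haN, hNdef, hn, hnj], orderOf_eq_prime hx2 hx1, ?_⟩, hc2⟩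
    rw [haQ, Nat.add_sub_cancel, ← hj, Nat.add_sub_cancel]

end CfsgLib.PassmanHalf
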