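import Cfsg.Agent.PassmanHalf.Split
import Cfsg.Agent.S3370

/-!
Half-transitive 2-groups with a system of imprimitivity of two parts.
-/

set_option autoImplicit false

namespace CfsgLib.PassmanHalf

variable {q : ℕ} [Fact q.Prime] {V : Type*} [AddCommGroup V] [Module (ZMod q) V] [Finite V]
  {G : Type*} [Group G] [Finite G] (ρ : G →* (V ≃ₗ[ZMod q] V))

theorem block_two (hρ : Function.Injective ρ) (hG : IsPGroup 2 G) (hq2 : q ≠ 2)
    (hhalf : ∀ v w : V, v ≠ 0 → w ≠ 0 → Nat.card {u : V | ∃ g : G, ρ g v = u} = Nat.card {u : V | ∃ g : G, ρ g w = u})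
    (hns : ¬ ∀ w : V, w ≠ 0 → ∀ g : G, ρ g w = w → g = 1)
    (H : Subgroup G) [H.Normal] (hidx : H.index = 2) (π : Module.End (ZMod q) V) (hπ0 : π ≠ 0)
    (hππ : ∀ v, π (π v) = π v) (hH : ∀ h ∈ H, cj ρ h π = π) (hperp : ∀ g ∉ H, ∀ v, π (cj ρ g π v) = 0)
    (hspan : ∀ W : Submodule (ZMod q) V, (∀ g v, ρ g (π v) ∈ W) → W = ⊤) :
    (Nat.card V = q ^ 2 ∧ (∃ m : ℕ, q = 2 ^ m + 1) ∧
      ∃ e : V ≃ₗ[ZMod q] (Fin 2 → ZMod q), ∀ f : (Fin 2 → ZMod q) ≃ₗ[ZMod q] (Fin 2 → ZMod q),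
        (∃ g : G, f = e.symm.trans ((ρ g).trans e)) ↔
        ∃ a s : ZMod q, a ≠ 0 ∧ (s = 1 ∨ s = -1) ∧
          ((∀ v, f v = ![a * v 0, s * a⁻¹ * v 1]) ∨ (∀ v, f v = ![s * a⁻¹ * v 1, a * v 0]))) ∨
    (Nat.card V = 81 ∧ q = 3) := by
  classical
  have hqp := (Fact.out : q.Prime)
  have hq3 : 3 ≤ q := by have := hqp.two_le; omega
  obtain ⟨v₀, hv₀⟩ : ∃ v, π v ≠ 0 := by by_contra h; push Not at h; exact hπ0 (LinearMap.ext h)
  have hin : ∀ g ∈ H, ∀ u, π u = u → π (ρ g u) = ρ g u := fun g hg u hu => by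
    conv_lhs => rw [← hH g hg, cj_act, hu]
  have hout : ∀ g ∉ H, ∀ u, π u = u → π (ρ g u) = 0 := fun g hg u hu => by
    rw [← hu, ← cj_act ρ g π u]; exact hperp g hg _
  obtain ⟨x, hx⟩ : ∃ x, x ∉ H := by
    by_contra h; push Not at h
    rw [(Subgroup.eq_top_iff' H).2 h, Subgroup.index_top] at hidx
    omega
  have hmul2 : ∀ a b : G, a ∉ H → b ∉ H → a * b ∈ H := fun a b ha hb =>
    (Subgroup.mul_mem_iff_of_index_two hidx).2 (iff_of_false ha hb)
  have hker : ∀ w, π w = 0 → π (ρ x⁻¹ w) = ρ x⁻¹ w := by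
    let W : Submodule (ZMod q) V :=
      { carrier := {v | π (ρ x⁻¹ (v - π v)) = ρ x⁻¹ (v - π v)}
        add_mem' := by
          intro a b ha hb
          simp only [Set.mem_setOf_eq, map_add, map_sub, add_sub_add_comm] at *
          rw [ha, hb]
        zero_mem' := by simp
        smul_mem' := by
          intro c a ha
          simp only [Set.mem_setOf_eq, map_smul, map_sub, ← smul_sub] at *
          rw [ha] }
    have hW : W = ⊤ := hspan W fun g v => by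
      show π (ρ x⁻¹ (ρ g (π v) - π (ρ g (π v)))) = ρ x⁻¹ (ρ g (π v) - π (ρ g (π v)))
      by_cases hg : g ∈ H
      · rw [hin g hg _ (hππ v), sub_self, map_zero, map_zero]
      · rw [hout g hg _ (hππ v), sub_zero, ← act_mul]
        exact hin _ (hmul2 _ _ (fun h => hx (H.inv_mem_iff.1 h)) hg) _ (hππ v)
    intro w hw
    have h1 : π (ρ x⁻¹ (w - π w)) = ρ x⁻¹ (w - π w) := (hW ▸ Submodule.mem_top : w ∈ W)
    rwa [hw, sub_zero] at h1
  have hu_stab : ∀ u, π u = u → u ≠ 0 → stab ρ u ≤ H := fun u hu hu0 g hg => by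
    by_contra h
    have := hout g h u hu
    rw [(hg : ρ g u = u), hu] at this
    exact hu0 this
  have hsum : ∀ u w, π u = u → π w = 0 → ∀ g ∈ H, ρ g (u + w) = u + w → ρ g u = u := fun u w hu hw g hg h => by
    rw [map_add] at h
    have h1 := congrArg π h
    have h2 : π (ρ g w) = 0 := by
      conv_lhs => rw [← hH g hg, cj_act, hw, map_zero]
    rwa [map_add, map_add, hin g hg u hu, hu, h2, hw, add_zero, add_zero] at h1
  have hpair : ∀ u w, π u = u → π w = 0 → u ≠ 0 → w ≠ 0 → (∀ g ∉ H, ρ g u ≠ w) → stab ρ u = stab ρ w := by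
    intro u w hu hw hu0 hw0 hno
    have huw : u + w ≠ 0 := fun h => hu0 (by
      have := congrArg π h
      rwa [map_add, hu, hw, add_zero, map_zero] at this)
    refine stab_eq_of_pair ρ hhalf hu0 hw0 huw fun g hg => ?_
    by_cases hgH : g ∈ H
    · exact hsum u w hu hw g hgH hg
    · exfalso
      have h1 : ρ g u + ρ g w - (u + w) = 0 := by rw [← map_add, hg, sub_self]
      have h2 := congrArg π h1
      rw [map_sub, map_add, map_add, hout g hgH u hu, hu, hw, add_zero, zero_add, map_zero, sub_eq_zero] at h2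
      have h3 : π (ρ g w) = ρ g w := by
        have h4 := hker w hw
        have h5 := hin (g * x) (hmul2 _ _ hgH hx) _ h4
        rwa [act_mul, act_inv'] at h5
      rw [h3] at h2
      rw [h2] at h1
      exact hno g hgH (sub_eq_zero.1 (by rw [← h1]; abel))
  set u₀ := π v₀
  have hu₀ : π u₀ = u₀ := hππ _
  have hnefix : ∃ u w, π u = u ∧ u ≠ 0 ∧ π w = 0 ∧ ∃ s ∈ stab ρ u, ρ s w ≠ w := by
    by_contra hall
    push Not at hall
    have heq : ∀ u w, π u = u → u ≠ 0 → π w = 0 → w ≠ 0 → stab ρ u = stab ρ w := fun u w hu hu0 hw hw0 =>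
      Subgroup.eq_of_le_of_card_ge (fun s hs => hall u w hu hu0 hw s hs) (stab_card_eq ρ hhalf hw0 hu0).le
    refine hns (semiregular_of_stab_eq_bot ρ hhalf hv₀ (eq_bot_of_fixes ρ hρ fun s hs v => ?_))
    have h1 : ρ s (v - π v) = v - π v := hall u₀ _ hu₀ hv₀ (by rw [map_sub, hππ, sub_self]) s hs
    have h2 : ρ s (π v) = π v := by
      by_cases hv : π v = 0
      · rw [hv, map_zero]
      · have hw₁ : π (ρ x u₀) = 0 := hout x hx u₀ hu₀
        have h3 := (heq u₀ _ hu₀ hv₀ hw₁ (act_ne ρ x hv₀)).trans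
          (heq (π v) _ (hππ v) hv hw₁ (act_ne ρ x hv₀)).symm
        exact (h3 ▸ hs : s ∈ stab ρ (π v))
    rw [map_sub, h2] at h1
    exact sub_left_injective h1
  obtain ⟨u₁, w₁, hu₁, hu₁0, hw₁, s₁, hs₁, hsw₁⟩ := hnefix
  -- the part V₀ and the fixed space of the stabiliser in the other part
  let U : Submodule (ZMod q) V := LinearMap.range π
  have hUmem : ∀ v, v ∈ U ↔ π v = v := fun v => ⟨by rintro ⟨w, rfl⟩; exact hππ w, fun h => ⟨v, h⟩⟩
  let K : Submodule (ZMod q) V := LinearMap.ker π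
  let F : Submodule (ZMod q) V := K ⊓ LinearMap.eqLocus (ρ s₁).toLinearMap LinearMap.id
  have hUK : Nat.card K = Nat.card U := Nat.card_congr
    { toFun := fun w => ⟨ρ x⁻¹ w, (hUmem _).2 (hker _ w.2)⟩
      invFun := fun u => ⟨ρ x u, hout x hx _ ((hUmem _).1 u.2)⟩
      left_inv := fun w => Subtype.ext (act_inv' ρ x _)
      right_inv := fun u => Subtype.ext (act_inv ρ x _) }
  set N := Nat.card U with hN
  have hFK : F < K := lt_of_le_of_ne inf_le_left fun h => hsw₁ ((h ▸ hw₁ : w₁ ∈ F)).2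
  obtain ⟨a, hFc, hKc⟩ : ∃ a, Nat.card F * 3 ≤ a ∧ a = N := by
    refine ⟨N, ?_, rfl⟩
    rw [← hUK, Module.natCard_eq_pow_finrank (K := ZMod q) (V := F), Module.natCard_eq_pow_finrank (K := ZMod q) (V := K),
      Nat.card_zmod]
    calc q ^ Module.finrank (ZMod q) F * 3 ≤ q ^ Module.finrank (ZMod q) F * q := Nat.mul_le_mul_left _ hq3
      _ = q ^ (Module.finrank (ZMod q) F + 1) := (pow_succ _ _).symm
      _ ≤ _ := Nat.pow_le_pow_right (by omega) (Submodule.finrank_lt_finrank_of_lt hFK)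
  subst hKc
  set Ω := {v : V | ∃ h ∈ H, ρ h u₁ = v} with hΩ
  have hsub : (K : Set V) \ (F : Set V) ⊆ (ρ x) '' Ω := by
    rintro w ⟨hwK, hwF⟩
    have hwK' : π w = 0 := hwK
    have hw0 : w ≠ 0 := fun h => hwF (h ▸ F.zero_mem)
    by_contra hno
    refine hwF ⟨hwK, ?_⟩
    have h1 := hpair u₁ w hu₁ hwK' hu₁0 hw0 fun g hg hgu => hno ⟨ρ (x⁻¹ * g) u₁,
      ⟨_, hmul2 _ _ (fun h => hx (H.inv_mem_iff.1 h)) hg, rfl⟩, by rw [← act_mul, mul_inv_cancel_left, hgu]⟩
    exact (h1 ▸ hs₁ : s₁ ∈ stab ρ w)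
  have hΩbig : N - Nat.card F ≤ Nat.card Ω := by
    have h1 := Set.ncard_le_ncard hsub (Set.toFinite _)
    rw [Set.ncard_image_of_injective _ (ρ x).injective, Set.ncard_sdiff (inf_le_left : F ≤ K) (Set.toFinite _)] at h1
    rw [← Nat.card_coe_set_eq, ← Nat.card_coe_set_eq, ← Nat.card_coe_set_eq] at h1
    rw [← hUK]
    exact h1
  set s := Nat.card (stab ρ u₁) with hs
  have hHorb : ∀ u, π u = u → u ≠ 0 → Nat.card {v : V | ∃ h ∈ H, ρ h u = v} * s = Nat.card H := fun u hu hu0 => by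
    rw [hs, stab_card_eq ρ hhalf hu₁0 hu0]
    have := orbit_card ρ H u
    rwa [inf_eq_right.2 (hu_stab u hu hu0)] at this
  have horbsub : ∀ u, π u = u → u ≠ 0 → {v : V | ∃ h ∈ H, ρ h u = v} ⊆ (U : Set V) \ {0} := by
    rintro u hu hu0 _ ⟨h, hh, rfl⟩
    exact ⟨(hUmem _).2 (hin h hh u hu), act_ne ρ h hu0⟩
  have hU0 : ((U : Set V) \ {0}).ncard = N - 1 := by
    rw [Set.ncard_sdiff (Set.singleton_subset_iff.2 U.zero_mem) (Set.toFinite _), Set.ncard_singleton, ← Nat.card_coe_set_eq]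
    rfl
  have htrans : (U : Set V) \ {0} ⊆ Ω := by
    rintro u ⟨huU, hu0⟩
    by_contra hno
    have hu : π u = u := (hUmem u).1 huU
    have hdis : Disjoint Ω {v : V | ∃ h ∈ H, ρ h u = v} := by
      rw [Set.disjoint_left]
      rintro v ⟨h, hh, rfl⟩ ⟨k, hk, hkv⟩
      exact hno ⟨k⁻¹ * h, H.mul_mem (H.inv_mem hk) hh, by rw [act_mul, ← hkv, act_inv]⟩
    have h1 := Set.ncard_le_ncard (Set.union_subset (horbsub u₁ hu₁ hu₁0) (horbsub u hu hu0)) (Set.toFinite _)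
    rw [Set.ncard_union_eq hdis (Set.toFinite _) (Set.toFinite _), hU0, ← Nat.card_coe_set_eq, ← Nat.card_coe_set_eq] at h1
    have h2 : Nat.card {v : V | ∃ h ∈ H, ρ h u = v} = Nat.card Ω :=
      Nat.eq_of_mul_eq_mul_right (Nat.card_pos (α := stab ρ u₁)) ((hHorb u hu hu0).trans (hHorb u₁ hu₁ hu₁0).symm)
    have : 0 < Nat.card F := Nat.card_pos
    omega
  have hΩeq : Nat.card Ω = N - 1 := by
    rw [Nat.card_coe_set_eq, show Ω = (U : Set V) \ {0} from Set.Subset.antisymm (horbsub u₁ hu₁ hu₁0) htrans, hU0]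
  obtain ⟨k, hk⟩ := IsPGroup.iff_card.1 hG
  have hdvd : Nat.card Ω ∣ 2 ^ k := hk ▸ (Dvd.intro _ (hHorb u₁ hu₁ hu₁0)).trans (Subgroup.card_subgroup_dvd_card H)
  obtain ⟨b, -, hb⟩ := (Nat.dvd_prime_pow Nat.prime_two).1 hdvd
  set d := Module.finrank (ZMod q) U with hd
  have hUd : N = q ^ d := by rw [hN, Module.natCard_eq_pow_finrank (K := ZMod q), Nat.card_zmod]
  have hFpos : 0 < Nat.card F := Nat.card_pos
  have hNum : q ^ d = 2 ^ b + 1 := by
    rw [← hb, hΩeq, ← hUd]; omega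
  have hd1 : 1 ≤ d := by
    rcases Nat.eq_zero_or_pos d with h | h
    · rw [h, pow_zero] at hUd; omega
    · exact h
  have hb1 : 1 ≤ b := by
    rcases Nat.eq_zero_or_pos b with h | h
    · rw [h, pow_zero] at hNum
      have : q ≤ q ^ d := Nat.le_self_pow (by omega) q
      omega
    · exact h
  have hV : Nat.card V = N * N := by
    rw [show N * N = Nat.card U * Nat.card K by rw [hUK], ← Nat.card_prod]
    refine Nat.card_congr
      { toFun := fun v => (⟨π v, ⟨v, rfl⟩⟩, ⟨v - π v, by show π (v - π v) = 0; rw [map_sub, hππ, sub_self]⟩)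
        invFun := fun p => p.1 + p.2
        left_inv := fun v => add_sub_cancel _ _
        right_inv := ?_ }
    rintro ⟨⟨u, hu⟩, ⟨w, hw⟩⟩
    have hu' : π u = u := (hUmem u).1 hu
    have hw' : π w = 0 := hw
    refine Prod.ext (Subtype.ext ?_) (Subtype.ext ?_)
    · show π (u + w) = u
      rw [map_add, hu', hw', add_zero]
    · show u + w - π (u + w) = w
      rw [map_add, hu', hw', add_zero, add_sub_cancel_left]
  rcases Cfsg.Agent.S3370.num Nat.prime_two hqp hd1 hb1 hNum with ⟨h, -⟩ | ⟨-, hdeq⟩ | ⟨-, h3, hd2, -⟩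
  · exact absurd h hq2
  swap
  · right
    exact ⟨by rw [hV, hUd, h3, hd2]; norm_num, h3⟩
  left
  rw [hdeq, pow_one] at hUd hNum
  refine ⟨by rw [hV, hUd, sq], ⟨b, hNum⟩, ?_⟩
  -- coordinates
  set e₁ := ρ x u₁ with he₁
  have he₁K : π e₁ = 0 := hout x hx u₁ hu₁
  have he₁0 : e₁ ≠ 0 := act_ne ρ x hu₁0
  have hsc : ∀ u, π u = u → ∃ c : ZMod q, c • u₁ = u := by
    intro u hu
    obtain ⟨c, hc⟩ := (finrank_eq_one_iff_of_nonzero' (⟨u₁, (hUmem _).2 hu₁⟩ : U)
      (fun h => hu₁0 (congrArg Subtype.val h))).1 hdeq ⟨u, (hUmem _).2 hu⟩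
    exact ⟨c, congrArg Subtype.val hc⟩
  have hscK : ∀ w, π w = 0 → ∃ c : ZMod q, c • e₁ = w := fun w hw => by
    obtain ⟨c, hc⟩ := hsc _ (hker w hw)
    exact ⟨c, by rw [he₁, ← map_smul, hc, act_inv']⟩
  let φ : (Fin 2 → ZMod q) →ₗ[ZMod q] V :=
    { toFun := fun v => v 0 • u₁ + v 1 • e₁
      map_add' := fun v w => by simp only [Pi.add_apply, add_smul]; abel
      map_smul' := fun c v => by simp only [Pi.smul_apply, smul_eq_mul, mul_smul, smul_add, RingHom.id_apply] }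
  have hφinj : Function.Injective φ := by
    rw [injective_iff_map_eq_zero]
    intro v hv
    have hv' : v 0 • u₁ + v 1 • e₁ = 0 := hv
    have h1 := congrArg π hv'
    rw [map_add, map_smul, map_smul, hu₁, he₁K, smul_zero, add_zero, map_zero] at h1
    have h0 : v 0 = 0 := (smul_eq_zero.1 h1).resolve_right hu₁0
    rw [h0, zero_smul, zero_add] at hv'
    have h1' : v 1 = 0 := (smul_eq_zero.1 hv').resolve_right he₁0
    ext i; fin_cases i <;> assumption
  let e : V ≃ₗ[ZMod q] (Fin 2 → ZMod q) :=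
    (LinearEquiv.ofBijective φ ((Nat.bijective_iff_injective_and_card φ).2 ⟨hφinj, by
      rw [hV, hUd, Nat.card_fun, Nat.card_zmod, Nat.card_fin, sq]⟩)).symm
  have hes : ∀ v, e.symm v = v 0 • u₁ + v 1 • e₁ := fun v => rfl
  -- elements of G in coordinates
  have hsd : ∀ g ∈ H, ∃ a b : ZMod q, ρ g u₁ = a • u₁ ∧ ρ g e₁ = b • e₁ := fun g hg => by
    obtain ⟨a, ha⟩ := hsc _ (hin g hg u₁ hu₁)
    obtain ⟨b, hb⟩ := hscK (ρ g e₁) (by conv_lhs => rw [← hH g hg, cj_act, he₁K, map_zero])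
    exact ⟨a, b, ha.symm, hb.symm⟩
  have hext : ∀ g g' : G, ρ g u₁ = ρ g' u₁ → ρ g e₁ = ρ g' e₁ → g = g' := fun g g' h1 h2 =>
    hρ (LinearEquiv.ext fun v => by
      rw [← e.symm_apply_apply v, hes]
      simp only [map_add, map_smul, h1, h2])
  have hstabH : ∀ g ∈ stab ρ u₁, ∀ g' ∈ stab ρ u₁, ρ g e₁ = ρ g' e₁ → g = g' := fun g hg g' hg' h =>
    hext g g' ((hg : ρ g u₁ = u₁).trans (hg' : ρ g' u₁ = u₁).symm) h
  obtain ⟨t, ht, ht1⟩ : ∃ t ∈ stab ρ u₁, t ≠ 1 :=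
    ⟨s₁, hs₁, fun h => hsw₁ (by rw [h, act_one])⟩
  obtain ⟨tb, htb⟩ : ∃ b : ZMod q, b • e₁ = ρ t e₁ := by
    obtain ⟨-, b, -, hb⟩ := hsd t (hu_stab u₁ hu₁ hu₁0 ht)
    exact ⟨b, hb.symm⟩
  have htb1 : tb ≠ 1 := by
    rintro rfl
    rw [one_smul] at htb
    exact ht1 (hstabH t ht 1 (act_one ρ u₁) (by rw [act_one, ← htb]))
  have hswap : ∀ c : ZMod q, c ≠ 0 → ∃ g ∉ H, ρ g u₁ = c • e₁ ∧ ρ g (c • e₁) = u₁ := by
    intro c hc
    have hwK : π (c • e₁) = 0 := by rw [map_smul, he₁K, smul_zero]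
    have hw0 : c • e₁ ≠ 0 := smul_ne_zero hc he₁0
    have huw : u₁ + c • e₁ ≠ 0 := fun h => hu₁0 (by
      have := congrArg π h
      rwa [map_add, hu₁, hwK, add_zero, map_zero] at this)
    by_contra hno
    push Not at hno
    have h1 : stab ρ u₁ = stab ρ (c • e₁) := by
      refine stab_eq_of_pair ρ hhalf hu₁0 hw0 huw fun g hg => ?_
      by_cases hgH : g ∈ H
      · exact hsum u₁ _ hu₁ hwK g hgH hg
      · exfalso
        have h2 := congrArg π hg
        rw [map_add, map_add, map_add, hout g hgH u₁ hu₁, hu₁, hwK, add_zero, zero_add] at h2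
        have h3 : π (ρ g (c • e₁)) = ρ g (c • e₁) := by
          rw [map_smul, map_smul, he₁, ← act_mul, hin _ (hmul2 _ _ hgH hx) _ hu₁]
        rw [h3] at h2
        rw [map_add, h2, add_comm] at hg
        exact hno g hgH (add_left_cancel hg) h2
    have h4 : ρ t (c • e₁) = c • e₁ := (h1 ▸ ht : t ∈ stab ρ (c • e₁))
    rw [map_smul, ← htb, smul_smul] at h4
    exact htb1 (mul_left_cancel₀ hc ((smul_left_injective _ he₁0 h4).trans (mul_one c).symm))
  -- the stabiliser has order two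
  obtain ⟨g₁, hg₁, hg₁u, hg₁e⟩ := hswap 1 one_ne_zero
  rw [one_smul] at hg₁u hg₁e
  have hs2 : ∀ k ∈ stab ρ u₁, k = 1 ∨ k = t := by
    intro k hk'
    have hne : u₁ + e₁ ≠ 0 := fun h => hu₁0 (by
      have := congrArg π h
      rwa [map_add, hu₁, he₁K, add_zero, map_zero] at this)
    have h2 : Nat.card (stab ρ (u₁ + e₁)) ≤ 2 := by
      have hcov : ∀ g ∈ stab ρ (u₁ + e₁), g = 1 ∨ g = g₁ := by
        intro g hg
        by_cases hgH : g ∈ H
        · left
          have h3 := hsum u₁ e₁ hu₁ he₁K g hgH hg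
          have h4 : ρ g e₁ = e₁ := by
            have h5 : ρ g (u₁ + e₁) = u₁ + e₁ := hg
            rw [map_add, h3] at h5
            exact add_left_cancel h5
          exact hext g 1 (by rw [h3, act_one]) (by rw [h4, act_one])
        · right
          have hgg : g₁⁻¹ * g ∈ stab ρ (u₁ + e₁) := by
            refine mul_mem (inv_mem ?_) hg
            show ρ g₁ (u₁ + e₁) = u₁ + e₁
            rw [map_add, hg₁u, hg₁e, add_comm]
          have hggH : g₁⁻¹ * g ∈ H := hmul2 _ _ (fun h => hg₁ (H.inv_mem_iff.1 h)) hgH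
          have h3 := hsum u₁ e₁ hu₁ he₁K _ hggH hgg
          have h4 : ρ (g₁⁻¹ * g) e₁ = e₁ := by
            have h5 : ρ (g₁⁻¹ * g) (u₁ + e₁) = u₁ + e₁ := hgg
            rw [map_add, h3] at h5
            exact add_left_cancel h5
          exact (inv_mul_eq_one.1 (hext _ 1 (by rw [h3, act_one]) (by rw [h4, act_one]))).symm
      have h6 : ((stab ρ (u₁ + e₁) : Subgroup G) : Set G) ⊆ {1, g₁} := fun g hg => by simpa using hcov g hg
      have h7 := Set.ncard_le_ncard h6 (Set.toFinite _)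
      rw [← Nat.card_coe_set_eq] at h7
      exact h7.trans (by
        refine (Set.ncard_insert_le _ _).trans ?_
        rw [Set.ncard_singleton])
    rw [stab_card_eq ρ hhalf hne hu₁0] at h2
    by_contra hcon
    push Not at hcon
    have h8 : ({1, t, k} : Set G) ⊆ (stab ρ u₁ : Set G) := by
      intro g hg
      rcases hg with rfl | rfl | rfl
      · exact one_mem _
      · exact ht
      · exact hk'
    have h9 := Set.ncard_le_ncard h8 (Set.toFinite _)
    rw [Set.ncard_eq_three.2 ⟨1, t, k, Ne.symm ht1, Ne.symm hcon.1, Ne.symm hcon.2, rfl⟩, ← Nat.card_coe_set_eq] at h9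
    exact absurd (h9.trans h2) (by omega)
  have htb2 : tb = -1 := by
    have h1 : t * t = 1 := by
      rcases hs2 (t * t) (mul_mem ht ht) with h | h
      · exact h
      · exact absurd (mul_eq_left.1 h) ht1
    have h2 : ρ (t * t) e₁ = e₁ := by rw [h1, act_one]
    rw [act_mul, ← htb, map_smul, ← htb, smul_smul] at h2
    have h3 : tb * tb = 1 := smul_left_injective _ he₁0 (h2.trans (one_smul _ _).symm)
    exact ((mul_self_eq_one_iff.1 h3)).resolve_left htb1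
  have hdiag : ∀ a : ZMod q, a ≠ 0 → ∀ s : ZMod q, (s = 1 ∨ s = -1) →
      ∃ g ∈ H, ρ g u₁ = a • u₁ ∧ ρ g e₁ = (s * a⁻¹) • e₁ := by
    intro a ha s hsa
    obtain ⟨g, hg, hgu, hge⟩ := hswap a⁻¹ (inv_ne_zero ha)
    have hge' : ρ g e₁ = a • u₁ := by
      rw [map_smul] at hge
      calc ρ g e₁ = a • a⁻¹ • ρ g e₁ := by rw [smul_smul, mul_inv_cancel₀ ha, one_smul]
        _ = a • u₁ := by rw [hge]
    have hgH : g * g₁ ∈ H := hmul2 _ _ hg hg₁
    rcases hsa with rfl | rfl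
    · exact ⟨g * g₁, hgH, by rw [act_mul, hg₁u, hge'], by rw [act_mul, hg₁e, hgu, one_mul]⟩
    · exact ⟨g * g₁ * t, H.mul_mem hgH (hu_stab u₁ hu₁ hu₁0 ht),
        by rw [act_mul, (ht : ρ t u₁ = u₁), act_mul, hg₁u, hge'],
        by rw [act_mul, ← htb, htb2, map_smul, act_mul, hg₁e, hgu, smul_smul]⟩
  have hshape : ∀ g ∈ H, ∃ a s : ZMod q, a ≠ 0 ∧ (s = 1 ∨ s = -1) ∧ ρ g u₁ = a • u₁ ∧ ρ g e₁ = (s * a⁻¹) • e₁ := by
    intro g hg
    obtain ⟨a, b, ha, hb⟩ := hsd g hg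
    have ha0 : a ≠ 0 := fun h => act_ne ρ g hu₁0 (by rw [ha, h, zero_smul])
    obtain ⟨k, hk, hku, hke⟩ := hdiag a ha0 1 (Or.inl rfl)
    have hst : k⁻¹ * g ∈ stab ρ u₁ := by
      show ρ (k⁻¹ * g) u₁ = u₁
      rw [act_mul, ha, ← hku, act_inv]
    rcases hs2 _ hst with h | h
    · rw [inv_mul_eq_one] at h
      subst h
      exact ⟨a, 1, ha0, Or.inl rfl, hku, hke⟩
    · refine ⟨a, -1, ha0, Or.inr rfl, ha, ?_⟩
      rw [inv_mul_eq_iff_eq_mul.1 h, act_mul, ← htb, htb2, map_smul, hke, smul_smul, one_mul]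
  have hconj : ∀ g v, e.symm.trans ((ρ g).trans e) v = e (ρ g (v 0 • u₁ + v 1 • e₁)) := fun g v => by
    rw [LinearEquiv.trans_apply, LinearEquiv.trans_apply, hes]
  have hsw : ∀ g a b, ρ g u₁ = a • u₁ → ρ g e₁ = b • e₁ → ∀ v, e.symm.trans ((ρ g).trans e) v = ![a * v 0, b * v 1] := by
    intro g a b ha hb v
    rw [hconj, ← LinearEquiv.eq_symm_apply, hes, map_add, map_smul, map_smul, ha, hb, smul_smul, smul_smul]
    simp [mul_comm]
  have hsw' : ∀ g a b, ρ g u₁ = a • e₁ → ρ g e₁ = b • u₁ → ∀ v, e.symm.trans ((ρ g).trans e) v = ![b * v 1, a * v 0] := by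
    intro g a b ha hb v
    rw [hconj, ← LinearEquiv.eq_symm_apply, hes, map_add, map_smul, map_smul, ha, hb, smul_smul, smul_smul]
    simp [mul_comm, add_comm]
  refine ⟨e, fun f => ⟨?_, ?_⟩⟩
  · rintro ⟨g, rfl⟩
    by_cases hg : g ∈ H
    · obtain ⟨a, s, ha, hsa, h1, h2⟩ := hshape g hg
      exact ⟨a, s, ha, hsa, Or.inl (hsw g _ _ h1 h2)⟩
    · obtain ⟨a, s, ha, hsa, h1, h2⟩ := hshape (g₁ * g) (hmul2 _ _ hg₁ hg)
      have h1' : ρ g u₁ = a • e₁ := by
        apply (ρ g₁).injective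
        rw [← act_mul, h1, map_smul, hg₁e]
      have h2' : ρ g e₁ = (s * a⁻¹) • u₁ := by
        apply (ρ g₁).injective
        rw [← act_mul, h2, map_smul, hg₁u]
      exact ⟨a, s, ha, hsa, Or.inr (hsw' g _ _ h1' h2')⟩
  · rintro ⟨a, s, ha, hsa, hf | hf⟩
    · obtain ⟨g, -, h1, h2⟩ := hdiag a ha s hsa
      exact ⟨g, LinearEquiv.ext fun v => by rw [hf, hsw g _ _ h1 h2]⟩
    · obtain ⟨g, -, h1, h2⟩ := hdiag a ha s hsa
      refine ⟨g₁ * g, LinearEquiv.ext fun v => ?_⟩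
      rw [hf, hsw' (g₁ * g) a (s * a⁻¹) (by rw [act_mul, h1, map_smul, hg₁u]) (by rw [act_mul, h2, map_smul, hg₁e])]

end CfsgLib.PassmanHalf
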