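import Cfsg.Agent.PassmanHalf.Basic
import Cfsg.Agent.PGroup.Basic

/-!
Half-transitive linear actions of p-groups: invariant families of orthogonal idempotents.
-/

set_option autoImplicit false

namespace CfsgLib.PassmanHalf

variable {q : ℕ} [Fact q.Prime] {V : Type*} [AddCommGroup V] [Module (ZMod q) V] [Finite V]
  {G : Type*} [Group G] [Finite G] (ρ : G →* (V ≃ₗ[ZMod q] V))

/-- The endomorphism of an element. -/
def toE (g : G) : Module.End (ZMod q) V := (ρ g).toLinearMap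

theorem toE_apply (g : G) (v : V) : toE ρ g v = ρ g v := rfl

theorem toE_mul (g h : G) : toE ρ (g * h) = toE ρ g * toE ρ h := LinearMap.ext fun v => act_mul ρ g h v

theorem toE_one : toE ρ 1 = 1 := LinearMap.ext fun v => act_one ρ v

theorem toE_inv_mul (g : G) : toE ρ g⁻¹ * toE ρ g = 1 := by rw [← toE_mul, inv_mul_cancel, toE_one]

theorem toE_mul_inv (g : G) : toE ρ g * toE ρ g⁻¹ = 1 := by rw [← toE_mul, mul_inv_cancel, toE_one]

/-- Conjugation of an endomorphism by an element. -/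
def cj (g : G) (f : Module.End (ZMod q) V) : Module.End (ZMod q) V := toE ρ g * f * toE ρ g⁻¹

theorem cj_apply (g : G) (f : Module.End (ZMod q) V) (v : V) : cj ρ g f v = ρ g (f (ρ g⁻¹ v)) := rfl

theorem cj_act (g : G) (f : Module.End (ZMod q) V) (v : V) : cj ρ g f (ρ g v) = ρ g (f v) := by
  rw [cj_apply, act_inv]

theorem cj_cj (g h : G) (f : Module.End (ZMod q) V) : cj ρ g (cj ρ h f) = cj ρ (g * h) f := by
  simp only [cj, mul_inv_rev, toE_mul, mul_assoc]

theorem cj_one (f : Module.End (ZMod q) V) : cj ρ 1 f = f := by simp [cj, toE_one]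

theorem cj_mul (g : G) (f f' : Module.End (ZMod q) V) : cj ρ g (f * f') = cj ρ g f * cj ρ g f' := by
  simp only [cj, mul_assoc, ← mul_assoc (toE ρ g⁻¹) (toE ρ g), toE_inv_mul, one_mul]

theorem cj_sum (g : G) {ι : Type*} (s : Finset ι) (f : ι → Module.End (ZMod q) V) :
    cj ρ g (∑ i ∈ s, f i) = ∑ i ∈ s, cj ρ g (f i) := by
  simp only [cj, Finset.mul_sum, Finset.sum_mul]

theorem cj_injective (g : G) : Function.Injective (cj ρ g) := fun f f' h => by
  have := congrArg (cj ρ g⁻¹) h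
  rwa [cj_cj, cj_cj, inv_mul_cancel, cj_one, cj_one] at this

/-- An idempotent commuting with the group forces semiregularity. -/
theorem semiregular_of_invariant_idempotent (hρ : Function.Injective ρ)
    (hhalf : ∀ v w : V, v ≠ 0 → w ≠ 0 → Nat.card {u : V | ∃ g : G, ρ g v = u} = Nat.card {u : V | ∃ g : G, ρ g w = u})
    {e : Module.End (ZMod q) V} (he : e * e = e) (he0 : e ≠ 0) (he1 : e ≠ 1) (hfix : ∀ g, cj ρ g e = e) :
    ∀ w : V, w ≠ 0 → ∀ g : G, ρ g w = w → g = 1 := by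
  have hee : ∀ v, e (e v) = e v := fun v => LinearMap.congr_fun he v
  have hcomm : ∀ g v, e (ρ g v) = ρ g (e v) := fun g v => by
    conv_lhs => rw [← hfix g, cj_act]
  obtain ⟨v₀, hv₀⟩ : ∃ v, e v ≠ 0 := by
    by_contra h; push Not at h; exact he0 (LinearMap.ext h)
  obtain ⟨w₀, hw₀⟩ : ∃ v, e v ≠ v := by
    by_contra h; push Not at h; exact he1 (LinearMap.ext h)
  have hpair : ∀ u w, u ≠ 0 → w ≠ 0 → e u = u → e w = 0 → stab ρ u = stab ρ w := by
    intro u w hu hw heu hew
    have huw : u + w ≠ 0 := fun h => hu (by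
      have := congrArg e h
      rwa [map_add, heu, hew, add_zero, map_zero] at this)
    refine stab_eq_of_pair ρ hhalf hu hw huw fun g hg => ?_
    have := congrArg e hg
    rwa [hcomm, map_add e, heu, hew, add_zero] at this
  set u := e v₀
  set w := w₀ - e w₀ with hwdef
  have hw0 : w ≠ 0 := sub_ne_zero.2 (Ne.symm hw₀)
  have hew : e w = 0 := by rw [hwdef, map_sub, hee, sub_self]
  have hS : stab ρ u = ⊥ := by
    refine eq_bot_of_fixes ρ hρ fun g hg v => ?_
    have h1 : ∀ x, e x = 0 → ρ g x = x := fun x hx => by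
      by_cases hx0 : x = 0
      · subst hx0; exact map_zero _
      · exact (hpair u x hv₀ hx0 (hee v₀) hx ▸ hg : g ∈ stab ρ x)
    have h2 : ρ g (e v) = e v := by
      by_cases hx0 : e v = 0
      · rw [hx0, map_zero]
      · have h3 : g ∈ stab ρ w := hpair u w hv₀ hw0 (hee v₀) hew ▸ hg
        show g ∈ stab ρ (e v)
        rw [hpair (e v) w hx0 hw0 (hee v) hew]; exact h3
    have h3 := h1 (v - e v) (by rw [map_sub, hee, sub_self])
    rw [map_sub, h2] at h3
    exact sub_left_injective h3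
  exact semiregular_of_stab_eq_bot ρ hhalf hv₀ hS

/-- A stable commutative algebra with a non-trivial idempotent yields a system of imprimitivity of `p` parts. -/
theorem exists_block (hρ : Function.Injective ρ) {p : ℕ} [Fact p.Prime] (hG : IsPGroup p G)
    (hhalf : ∀ v w : V, v ≠ 0 → w ≠ 0 → Nat.card {u : V | ∃ g : G, ρ g v = u} = Nat.card {u : V | ∃ g : G, ρ g w = u})
    (hns : ¬ ∀ w : V, w ≠ 0 → ∀ g : G, ρ g w = w → g = 1)
    (R : Subalgebra (ZMod q) (Module.End (ZMod q) V)) (hcomm : ∀ a ∈ R, ∀ b ∈ R, a * b = b * a)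
    (hstab : ∀ g, ∀ a ∈ R, cj ρ g a ∈ R) {e₀ : Module.End (ZMod q) V} (he₀R : e₀ ∈ R) (he₀ : e₀ * e₀ = e₀)
    (he₀0 : e₀ ≠ 0) (he₀1 : e₀ ≠ 1) :
    ∃ (H : Subgroup G) (π : Module.End (ZMod q) V), H.Normal ∧ H.index = p ∧ π ≠ 0 ∧ (∀ v, π (π v) = π v) ∧
      (∀ h ∈ H, cj ρ h π = π) ∧ (∀ g ∉ H, ∀ v, π (cj ρ g π v) = 0) ∧
      (∀ W : Submodule (ZMod q) V, (∀ g v, ρ g (π v) ∈ W) → W = ⊤) := by
  classical
  haveI : Finite (Module.End (ZMod q) V) := Finite.of_injective (fun f : Module.End (ZMod q) V => (f : V → V))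
    DFunLike.coe_injective
  let S : Set (Module.End (ZMod q) V) := {e | e ∈ R ∧ e * e = e ∧ e ≠ 0}
  obtain ⟨e, ⟨heR, hee, he0⟩, hmin⟩ := Set.exists_min_image S (fun e => Nat.card (LinearMap.range e))
    (Set.toFinite S) ⟨e₀, he₀R, he₀, he₀0⟩
  have he1 : e ≠ 1 := by
    rintro rfl
    have h1 := hmin e₀ ⟨he₀R, he₀, he₀0⟩
    rw [show LinearMap.range (1 : Module.End (ZMod q) V) = ⊤ from LinearMap.range_id] at h1
    have h2 : LinearMap.range e₀ = ⊤ := SetLike.coe_injective (Set.eq_of_subset_of_ncard_le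
      (Set.subset_univ _) (by rwa [← Nat.card_coe_set_eq, ← Nat.card_coe_set_eq]) (Set.toFinite _))
    refine he₀1 (LinearMap.ext fun v => ?_)
    obtain ⟨w, rfl⟩ := (h2 ▸ Submodule.mem_top : v ∈ LinearMap.range e₀)
    exact LinearMap.congr_fun he₀ w
  -- absorption
  have habs : ∀ f ∈ R, f * f = f → Nat.card (LinearMap.range f) = Nat.card (LinearMap.range e) →
      ∀ f' ∈ R, f' * f' = f' → f * f' ≠ 0 → f * f' = f := by
    intro f hf hff hfc f' hf' hff' hne
    have hcm := hcomm f hf f' hf'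
    have hidem : (f * f') * (f * f') = f * f' := by
      calc (f * f') * (f * f') = f * (f' * f) * f' := by simp only [mul_assoc]
        _ = (f * f) * (f' * f') := by rw [← hcm]; simp only [mul_assoc]
        _ = f * f' := by rw [hff, hff']
    have h1 := hmin (f * f') ⟨R.mul_mem hf hf', hidem, hne⟩
    have hle : LinearMap.range (f * f') ≤ LinearMap.range f := LinearMap.range_comp_le_range f' f
    have h2 : LinearMap.range (f * f') = LinearMap.range f := SetLike.coe_injective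
      (Set.eq_of_subset_of_ncard_le hle (by rw [← Nat.card_coe_set_eq, ← Nat.card_coe_set_eq]; exact hfc.trans_le h1)
        (Set.toFinite _))
    have h3 : f * f' * f = f * f' := by rw [mul_assoc, ← hcm, ← mul_assoc, hff]
    rw [← h3]
    refine LinearMap.ext fun v => ?_
    obtain ⟨w, hw⟩ : f v ∈ LinearMap.range (f * f') := h2 ▸ LinearMap.mem_range_self f v
    show (f * f') (f v) = f v
    rw [← hw]; exact LinearMap.congr_fun hidem w
  have hidem : ∀ g, cj ρ g e * cj ρ g e = cj ρ g e := fun g => by rw [← cj_mul, hee]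
  have hcard : ∀ g, Nat.card (LinearMap.range (cj ρ g e)) = Nat.card (LinearMap.range e) := fun g =>
    (Nat.card_congr (((LinearMap.range e).equivMapOfInjective (ρ g).toLinearMap (ρ g).injective).toEquiv.trans
      (LinearEquiv.ofEq _ _ (by
        ext x
        simp only [Submodule.mem_map, LinearMap.mem_range]
        constructor
        · rintro ⟨_, ⟨v, rfl⟩, rfl⟩; exact ⟨ρ g v, cj_act ρ g e v⟩
        · rintro ⟨v, rfl⟩; exact ⟨_, ⟨_, rfl⟩, rfl⟩)).toEquiv)).symm
  have hperp : ∀ g h, cj ρ g e ≠ cj ρ h e → cj ρ g e * cj ρ h e = 0 := by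
    intro g h hne
    by_contra h0
    have h1 := habs _ (hstab g e heR) (hidem g) (hcard g) _ (hstab h e heR) (hidem h) h0
    have hcm := hcomm _ (hstab g e heR) _ (hstab h e heR)
    have h2 := habs _ (hstab h e heR) (hidem h) (hcard h) _ (hstab g e heR) (hidem g) (hcm ▸ h0)
    exact hne (h1.symm.trans (hcm.trans h2))
  haveI := Fintype.ofFinite G
  set O := Finset.univ.image fun g : G => cj ρ g e with hO
  have hsum1 : ∑ f ∈ O, f = 1 := by
    by_contra hne
    refine hns (semiregular_of_invariant_idempotent ρ hρ hhalf (e := ∑ f ∈ O, f) ?_ ?_ hne ?_)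
    · rw [Finset.sum_mul]
      refine Finset.sum_congr rfl fun f hf => ?_
      obtain ⟨g, -, rfl⟩ := Finset.mem_image.1 hf
      rw [Finset.mul_sum, Finset.sum_eq_single (cj ρ g e) ?_ (fun h => absurd hf h), hidem]
      intro f' hf' hne'
      obtain ⟨h, -, rfl⟩ := Finset.mem_image.1 hf'
      exact hperp g h (Ne.symm hne')
    · intro h0
      have h1 : e * ∑ f ∈ O, f = e := by
        rw [Finset.mul_sum, Finset.sum_eq_single e ?_ ?_, hee]
        · intro f' hf' hne'
          obtain ⟨h, -, rfl⟩ := Finset.mem_image.1 hf'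
          have := hperp 1 h (by rw [cj_one]; exact Ne.symm hne')
          rwa [cj_one] at this
        · intro h; exact absurd (Finset.mem_image.2 ⟨1, Finset.mem_univ _, cj_one ρ e⟩) h
      rw [h0, mul_zero] at h1
      exact he0 h1.symm
    · intro k
      rw [cj_sum]
      refine Finset.sum_nbij (cj ρ k) ?_ (fun a _ b _ h => cj_injective ρ k h) ?_ (fun a _ => rfl)
      · intro f hf
        obtain ⟨g, -, rfl⟩ := Finset.mem_image.1 hf
        exact Finset.mem_image.2 ⟨k * g, Finset.mem_univ _, (cj_cj ρ k g e).symm⟩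
      · intro f hf
        obtain ⟨g, -, rfl⟩ := Finset.mem_image.1 hf
        exact ⟨cj ρ (k⁻¹ * g) e, Finset.mem_image.2 ⟨_, Finset.mem_univ _, rfl⟩, by rw [cj_cj, mul_inv_cancel_left]⟩
  let Se : Subgroup G :=
    { carrier := {g | cj ρ g e = e}
      one_mem' := cj_one ρ e
      mul_mem' := fun {a b} (ha : cj ρ a e = e) (hb : cj ρ b e = e) => by
        show cj ρ (a * b) e = e
        rw [← cj_cj, hb, ha]
      inv_mem' := fun {a} (ha : cj ρ a e = e) => by
        show cj ρ a⁻¹ e = e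
        conv_lhs => rw [← ha, cj_cj, inv_mul_cancel, cj_one] }
  have hSe : Se ≠ ⊤ := fun h => hns (semiregular_of_invariant_idempotent ρ hρ hhalf hee he0 he1
    fun g => (h ▸ Subgroup.mem_top g : g ∈ Se))
  obtain ⟨M, hM, hSeM⟩ := (eq_top_or_exists_le_coatom Se).resolve_left hSe
  obtain ⟨hMn, hMi⟩ := CfsgLib.PGroup.index_coatom hG hM
  set P := O.filter fun f => ∃ m ∈ M, cj ρ m e = f with hP
  have hmemP : ∀ g, cj ρ g e ∈ P → g ∈ M := by
    intro g hg
    obtain ⟨m, hm, hme⟩ := (Finset.mem_filter.1 hg).2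
    have : m⁻¹ * g ∈ Se := by
      show cj ρ (m⁻¹ * g) e = e
      rw [← cj_cj, ← hme, cj_cj, inv_mul_cancel, cj_one]
    simpa using M.mul_mem hm (hSeM this)
  have hePmem : e ∈ P := Finset.mem_filter.2 ⟨Finset.mem_image.2 ⟨1, Finset.mem_univ _, cj_one ρ e⟩,
    1, M.one_mem, cj_one ρ e⟩
  have hπe : (∑ f ∈ P, f) * e = e := by
    rw [Finset.sum_mul, Finset.sum_eq_single e ?_ (fun h => absurd hePmem h), hee]
    intro f hf hne
    obtain ⟨g, -, rfl⟩ := Finset.mem_image.1 (Finset.mem_filter.1 hf).1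
    have := hperp g 1 (by rwa [cj_one])
    rwa [cj_one] at this
  refine ⟨M, ∑ f ∈ P, f, hMn, hMi, ?_, ?_, ?_, ?_, ?_⟩
  · intro h0; rw [h0, zero_mul] at hπe; exact he0 hπe.symm
  · have : (∑ f ∈ P, f) * (∑ f ∈ P, f) = ∑ f ∈ P, f := by
      rw [Finset.sum_mul]
      refine Finset.sum_congr rfl fun f hf => ?_
      obtain ⟨g, -, rfl⟩ := Finset.mem_image.1 (Finset.mem_filter.1 hf).1
      rw [Finset.mul_sum, Finset.sum_eq_single (cj ρ g e) ?_ (fun h => absurd hf h), hidem]
      intro f' hf' hne'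
      obtain ⟨h, -, rfl⟩ := Finset.mem_image.1 (Finset.mem_filter.1 hf').1
      exact hperp g h (Ne.symm hne')
    exact fun v => LinearMap.congr_fun this v
  · intro k hk
    rw [cj_sum]
    refine Finset.sum_nbij (cj ρ k) ?_ (fun a _ b _ h => cj_injective ρ k h) ?_ (fun a _ => rfl)
    · intro f hf
      obtain ⟨-, m, hm, rfl⟩ := Finset.mem_filter.1 hf
      rw [hP, Finset.mem_filter, cj_cj]
      exact ⟨Finset.mem_image.2 ⟨_, Finset.mem_univ _, rfl⟩, k * m, M.mul_mem hk hm, rfl⟩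
    · intro f hf
      obtain ⟨-, m, hm, rfl⟩ := Finset.mem_filter.1 hf
      refine ⟨cj ρ (k⁻¹ * m) e, Finset.mem_filter.2 ⟨Finset.mem_image.2 ⟨_, Finset.mem_univ _, rfl⟩,
        _, M.mul_mem (M.inv_mem hk) hm, rfl⟩, by rw [cj_cj, mul_inv_cancel_left]⟩
  · intro g hg v
    show ((∑ f ∈ P, f) * cj ρ g (∑ f ∈ P, f)) v = 0
    rw [cj_sum, Finset.sum_mul]
    rw [Finset.sum_eq_zero (fun f hf => ?_), LinearMap.zero_apply]
    obtain ⟨-, m, hm, rfl⟩ := Finset.mem_filter.1 hf
    rw [Finset.mul_sum]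
    refine Finset.sum_eq_zero fun f' hf' => ?_
    obtain ⟨-, m', hm', rfl⟩ := Finset.mem_filter.1 hf'
    rw [cj_cj]
    refine hperp _ _ fun h => hg ?_
    have hmem : cj ρ (g * m') e ∈ P := by
      rw [← h]; exact Finset.mem_filter.2 ⟨Finset.mem_image.2 ⟨_, Finset.mem_univ _, rfl⟩, m, hm, rfl⟩
    exact (Subgroup.mul_mem_cancel_right M hm').1 (hmemP _ hmem)
  · intro W hW
    rw [eq_top_iff]
    intro v _
    have hv : v = ∑ f ∈ O, f v := by
      conv_lhs => rw [show v = (∑ f ∈ O, f) v by rw [hsum1]; rfl, LinearMap.sum_apply]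
    rw [hv]
    refine Submodule.sum_mem _ fun f hf => ?_
    obtain ⟨g, -, rfl⟩ := Finset.mem_image.1 hf
    rw [cj_apply, ← hπe, Module.End.mul_apply]
    exact hW _ _

/-- For odd `p` a system of imprimitivity forces semiregularity. -/
theorem semiregular_of_block_odd (hρ : Function.Injective ρ) {p : ℕ} [hp : Fact p.Prime] (hp2 : p ≠ 2)
    (hhalf : ∀ v w : V, v ≠ 0 → w ≠ 0 → Nat.card {u : V | ∃ g : G, ρ g v = u} = Nat.card {u : V | ∃ g : G, ρ g w = u})
    (H : Subgroup G) [H.Normal] (hidx : H.index = p) (π : Module.End (ZMod q) V) (hπ0 : π ≠ 0)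
    (hππ : ∀ v, π (π v) = π v) (hH : ∀ h ∈ H, cj ρ h π = π) (hperp : ∀ g ∉ H, ∀ v, π (cj ρ g π v) = 0)
    (hspan : ∀ W : Submodule (ZMod q) V, (∀ g v, ρ g (π v) ∈ W) → W = ⊤) :
    ∀ w : V, w ≠ 0 → ∀ g : G, ρ g w = w → g = 1 := by
  obtain ⟨v₀, hv₀⟩ : ∃ v, π v ≠ 0 := by by_contra h; push Not at h; exact hπ0 (LinearMap.ext h)
  have hin : ∀ g ∈ H, ∀ u, π u = u → π (ρ g u) = ρ g u := fun g hg u hu => by
    conv_lhs => rw [← hH g hg, cj_act, hu]
  have hout : ∀ g ∉ H, ∀ u, π u = u → π (ρ g u) = 0 := fun g hg u hu => by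
    rw [← hu, ← cj_act ρ g π u]; exact hperp g hg _
  have hcomp : ∀ g c : G, ∀ u, π u = u → cj ρ c π (ρ g u) = ρ c (π (ρ (c⁻¹ * g) u)) := fun g c u hu => by
    rw [cj_apply, act_mul]
  have hpair : ∀ c ∉ H, ∀ u u', π u = u → π u' = u' → u ≠ 0 → u' ≠ 0 → stab ρ u = stab ρ (ρ c u') := by
    intro c hc u u' hu hu' hu0 hu'0
    have huw : u + ρ c u' ≠ 0 := fun h => hu0 (by
      have := congrArg π h
      rwa [map_add, hu, hout c hc u' hu', add_zero, map_zero] at this)
    refine stab_eq_of_pair ρ hhalf hu0 (act_ne ρ c hu'0) huw fun g hg => ?_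
    have hg' : ρ g u + ρ (g * c) u' = u + ρ c u' := by rw [← hg, map_add, act_mul]
    have h1 := congrArg π hg'
    rw [map_add, map_add π u, hu, hout c hc u' hu', add_zero] at h1
    by_cases hgH : g ∈ H
    · have hgc : g * c ∉ H := fun h => hc ((H.mul_mem_cancel_left hgH).1 h)
      rwa [hin g hgH u hu, hout _ hgc u' hu', add_zero] at h1
    · exfalso
      have hgc : g * c ∈ H := by
        by_contra h
        rw [hout g hgH u hu, hout _ h u' hu', add_zero] at h1
        exact hu0 h1.symm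
      have h2 := congrArg (cj ρ c π) hg'
      rw [map_add, map_add (cj ρ c π) u, hcomp g c u hu, hcomp _ c u' hu', cj_act, hu', cj_apply] at h2
      have hci : c⁻¹ ∉ H := fun h => hc (H.inv_mem_iff.1 h)
      rw [hout _ hci u hu, map_zero, zero_add] at h2
      have hcgc : c⁻¹ * (g * c) ∉ H := fun h => hci ((H.mul_mem_cancel_right hgc).1 h)
      rw [hout _ hcgc u' hu', map_zero, add_zero] at h2
      have hcg : c⁻¹ * g ∈ H := by
        by_contra h
        rw [hout _ h u hu, map_zero] at h2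
        exact act_ne ρ c hu'0 h2.symm
      apply hc
      have h4 : c * c ∈ H := by
        have e1 : c * c = c * (g⁻¹ * c) * c⁻¹ * (g * c) := by group
        rw [e1]
        refine H.mul_mem ((inferInstance : H.Normal).conj_mem _ ?_ c) hgc
        simpa using H.inv_mem hcg
      obtain ⟨k, hk⟩ := hp.out.odd_of_ne_two hp2
      have h6 : c ^ p ∈ H := hidx ▸ H.pow_index_mem c
      rw [hk, pow_succ, pow_mul, sq] at h6
      exact (H.mul_mem_cancel_left (H.pow_mem h4 k)).1 h6
  obtain ⟨c, hc⟩ : ∃ c, c ∉ H := by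
    by_contra h; push Not at h
    rw [(Subgroup.eq_top_iff' H).2 h, Subgroup.index_top] at hidx
    exact hp.out.ne_one hidx.symm
  set u := π v₀
  refine semiregular_of_stab_eq_bot ρ hhalf hv₀ (eq_bot_of_fixes ρ hρ fun s hs v => ?_)
  let W : Submodule (ZMod q) V := LinearMap.eqLocus (ρ s).toLinearMap LinearMap.id
  have hW : W = ⊤ := hspan W fun g x => by
    show ρ s (ρ g (π x)) = ρ g (π x)
    by_cases hx : π x = 0
    · rw [hx, map_zero, map_zero]
    by_cases hg : g ∈ H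
    · have h1 : s ∈ stab ρ (ρ c u) := hpair c hc u u (hππ _) (hππ _) hv₀ hv₀ ▸ hs
      have h2 := hpair c hc (ρ g (π x)) u (hin g hg _ (hππ _)) (hππ _) (act_ne ρ g hx) hv₀
      exact (h2.symm ▸ h1 : s ∈ stab ρ (ρ g (π x)))
    · exact (hpair g hg u (π x) (hππ _) (hππ _) hv₀ hx ▸ hs : s ∈ stab ρ (ρ g (π x)))
  exact (hW ▸ Submodule.mem_top : v ∈ W)

end CfsgLib.PassmanHalf
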